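import Cfsg.Agent.MaxSub.OrthWreathBig.Generate
import Cfsg.Agent.MaxSub.TensorMax.SympMain
import Cfsg.Agent.NotMax.TensorPower
import Cfsg.Agent.Forms.OmegaCrit

/-!
The stabiliser of an orthogonal tensor power with factors of dimension at least five is maximal in `Ω`.
-/

set_option autoImplicit false
set_option linter.unusedSectionVars false
set_option linter.unusedSimpArgs false
set_option linter.style.haveILetI false

namespace Cfsg.Agent.MaxSub.OrthWreathBig

open Matrix Module QuadraticMap Cfsg.Geo Cfsg.Agent.NotMax Cfsg.Agent.GeoClasses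
open Cfsg.Agent.MaxSub.TensorPowSp Cfsg.Agent.Classical
open Cfsg.Agent.MaxSub.OrthTensor (Sym Hyp Pair₂)
open scoped MatrixGroups Matrix

variable {F : Type*} [Field F] {k t : ℕ} {G : Matrix (Fin k) (Fin k) F}

lemma factorPerm_pureVec (π : Equiv.Perm (Fin t)) (w : Fin t → Fin k → F) :
    (factorPerm k π : Matrix (Fin t → Fin k) (Fin t → Fin k) F) *ᵥ pureVec w =
      pureVec fun i => w (π.symm i) := by
  ext x
  simp only [Matrix.mulVec, dotProduct, factorPerm, ite_mul, one_mul, zero_mul, Finset.sum_ite_eq',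
    Finset.mem_univ, if_true, pureVec, Function.comp_apply]
  exact Fintype.prod_equiv π _ _ fun i => by simp

variable [Finite F]

/-- An Eichler transformation of pure shape which permutes no pure vectors. -/
lemma exists_not_pure {M : Subgroup (GL (Fin t → Fin k) F)} (h : Sys G M)
    {Qv : QuadraticForm F ((Fin t → Fin k) → F)} {c₀ : F} (L : Link G t Qv c₀) (hB : BNondeg Qv) :
    ∃ g ∈ commutator (OQ Qv), ∀ (gs : Fin t → Matrix (Fin k) (Fin k) F) (π : Equiv.Perm (Fin t)),
      ((oqToGL Qv g : GL (Fin t → Fin k) F) : Matrix (Fin t → Fin k) (Fin t → Fin k) F) ≠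
        pureMat gs * factorPerm k π := by
  classical
  obtain ⟨x, x', hx⟩ := h.hg.exists_hyp_any h.finrank_five
  obtain ⟨d, d', hd, hdd', hxd', hx'd, hx'd'⟩ := h.hg.exists_second h.finrank_five hx
  haveI : Nontrivial (Fin t) := Fin.nontrivial_iff_two_le.2 h.tpos
  let q : Fin t := ⟨0, by have := h.tpos; omega⟩
  obtain ⟨j, hj⟩ := exists_ne q
  set u := Function.update (fun _ : Fin t => x) q d with hu
  set w := fun _ : Fin t => x with hw
  have hQw : Qv (pureVec w) = 0 := L.singular h.two (i := q) hx.1
  have hQu : Qv (pureVec u) = 0 := L.singular h.two (i := q) (by simp [hu, hd.2.2.2.1])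
  have hp : polar Qv (pureVec w) (c₀⁻¹ • pureVec u) = 0 := by
    rw [polar_smul_right, L.perp (i := q) (by simp [hu, hw, hd.2.2.2.2]), smul_zero]
  refine ⟨siegel Qv hQw hp, siegel_singular_mem_commutator hB h.five_le_card hQw hp
    (by rw [QuadraticMap.map_smul, hQu, smul_zero]), fun gs π e => ?_⟩
  set y := fun _ : Fin t => x' with hy
  set T := fun i => gs i *ᵥ y (π.symm i)
  have hT : (siegel Qv hQw hp).1 (pureVec y) = pureVec T := by
    rw [← oqToGL_mulVec, e, ← mulVec_mulVec, factorPerm_pureVec, pureMat_mulVec]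
  have hwy : polar Qv (pureVec w) (pureVec y) = c₀ := by
    rw [L.pure, Finset.prod_eq_one fun i _ => by simp [hw, hy, hx.2.2], mul_one]
  have hval : ∀ f : Fin t → Fin k → F, c₀ * ∏ i, gB G (T i) (f i) =
      c₀ * ∏ i, gB G (y i) (f i) + c₀ * ∏ i, gB G (u i) (f i) := by
    intro f
    have huy : polar Qv (pureVec u) (pureVec y) = 0 := L.perp (i := q) (by
      simp [hu, hy, h.hg.symm d x', hx'd])
    have := congrArg (fun X => polar Qv X (pureVec f)) hT.symm
    rw [siegel_apply, QuadraticMap.map_smul, hQu, smul_zero, zero_mul, zero_smul, sub_zero,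
      polar_smul_left, huy, smul_zero, zero_smul, sub_zero, hwy, smul_smul, mul_inv_cancel₀ L.ne,
      one_smul, polar_add_left, L.pure, L.pure, L.pure] at this
    exact this
  have e1 := hval (Function.update (fun _ => x) q d')
  have e3 := hval (Function.update (fun _ => x') q d')
  rw [Finset.prod_eq_zero (s := Finset.univ) (Finset.mem_univ q) (f := fun i =>
      gB G (y i) (Function.update (fun _ : Fin t => x) q d' i)) (by simp [hy, hx'd']),
    Finset.prod_eq_zero (s := Finset.univ) (Finset.mem_univ j) (f := fun i =>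
      gB G (u i) (Function.update (fun _ : Fin t => x) q d' i)) (by simp [hu, hw, hj, hx.1])] at e1
  rw [Finset.prod_eq_zero (s := Finset.univ) (Finset.mem_univ q) (f := fun i =>
      gB G (y i) (Function.update (fun _ : Fin t => x') q d' i)) (by simp [hy, hx'd']),
    Finset.prod_eq_one (s := Finset.univ) (f := fun i =>
      gB G (u i) (Function.update (fun _ : Fin t => x') q d' i)) (fun i _ => by
        by_cases hi : i = q
        · simp [hi, hu, hw, hdd'.2.2]
        · simp [hi, hu, hw, hx.2.2])] at e3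
  simp only [mul_zero, add_zero, zero_add, mul_one, mul_eq_zero, L.ne, false_or,
    Finset.prod_eq_zero_iff, Finset.mem_univ, true_and] at e1
  obtain ⟨i, hi⟩ := e1
  by_cases hiq : i = q
  · subst hiq
    rw [Finset.prod_eq_zero (Finset.mem_univ q) (f := fun i => gB G (T i) (Function.update (fun _ : Fin t => x') q d' i))
      (by simpa using hi)] at e3
    simp [L.ne] at e3
    exact L.ne e3.symm
  · have e0 := hval fun _ => x
    rw [Finset.prod_eq_zero (Finset.mem_univ i) (by simpa [hiq] using hi),
      Finset.prod_eq_one (fun l _ => by simp [hy, h.hg.symm x' x, hx.2.2]),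
      Finset.prod_eq_zero (Finset.mem_univ j) (by simp [hu, hw, hj, hx.1])] at e0
    simp [L.ne] at e0
    exact L.ne e0.symm

/-- **The stabiliser of an orthogonal tensor power with factors of dimension at least five is maximal
in `Ω`.** -/
theorem omegaGL_tensorWreath_maximal {F : Type*} [Field F] [Fintype F]
    (hodd : Odd (Fintype.card F)) {ι : Type} [Fintype ι] [DecidableEq ι] {Q : (ι → F) → F}
    (hQ : Cfsg.Geo.IsNondegenerateQuadraticForm Q) {k t : ℕ} (hk : 5 ≤ k) (ht : 2 ≤ t)
    (e : ι ≃ (Fin t → Fin k)) (P : Matrix.GeneralLinearGroup ι F)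
    (f₁ : (Fin k → F) → (Fin k → F) → F) (hf₁ : Cfsg.Geo.IsSymmetricForm f₁)
    (hT : Cfsg.Geo.IsTensorPowerFormStructure id (QuadraticMap.polar Q) f₁ e P) :
    Cfsg.Geo.IsMaximalIn (Cfsg.Geo.omegaGL Q)
      (Cfsg.Geo.tensorWreathSubgroup k t e P ⊓ Cfsg.Geo.omegaGL Q) := by
  classical
  obtain ⟨c₀, hc₀, hform⟩ := hT
  set G := gramMatrix f₁ with hG
  have h2 : (2 : F) ≠ 0 := by
    intro e2
    have : CharP F 2 := (CharP.charP_iff_prime_eq_zero Nat.prime_two).2 e2
    exact (Nat.not_even_iff_odd.2 hodd) (FiniteField.even_card_iff_char_two.1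
      (ringChar.eq F 2) |> Nat.even_iff.2)
  have hGf : ∀ x y, f₁ x y = x ⬝ᵥ G *ᵥ y := fun x y => by
    rw [TensorMax.form_eq_sum hf₁.bilinear]
    simp only [dotProduct, Matrix.mulVec, Finset.mul_sum, mul_assoc, hG]
  have hGsym : Gᵀ = G := Matrix.ext fun a b => hf₁.symm _ _
  have hGdet : IsUnit G.det := by
    rw [isUnit_iff_ne_zero]
    intro h0
    obtain ⟨v, hv, hv0⟩ := Matrix.exists_vecMul_eq_zero_iff.2 h0
    obtain ⟨-, y, hy⟩ := hf₁.nondegenerate v hv
    exact hy (by simp [hGf, dotProduct_mulVec, hv0])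
  set φ := powAlg e P
  let Φ : GL (Fin t → Fin k) F →* GL ι F := Units.map (φ : _ →* _)
  have hΦ : ∀ g, (Φ g : Matrix ι ι F) = φ g := fun g => rfl
  let ψ : ((Fin t → Fin k) → F) ≃ₗ[F] (ι → F) :=
    LinearEquiv.ofBijective (powVec e P) ⟨powVec_injective e P, powVec_surjective e P⟩
  set Qf := toQF hQ with hQf
  let Qv : QuadraticForm F ((Fin t → Fin k) → F) := Qf.comp ψ.toLinearMap
  have L : Link G t Qv c₀ := ⟨hc₀, fun x y => by
    have h1 : polar Qv x y = QuadraticMap.polar Q (powVec e P x) (powVec e P y) := by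
      simp only [QuadraticMap.polar, Qv, QuadraticMap.comp_apply, map_add]
      rfl
    rw [h1, powVec_apply, powVec_apply, hform]
    congr 1
    simp only [dotProduct, Matrix.mulVec, Finset.mul_sum, id_eq, gV, hG]
    exact Finset.sum_congr rfl fun a _ => Finset.sum_congr rfl fun b _ => by
      show x a * (∏ i, G (a i) (b i)) * y b = x a * ((∏ i, G (a i) (b i)) * y b)
      ring⟩
  have hBf : BNondeg Qf := bNondeg_toQF hQ
  have hB : BNondeg Qv := fun x hx => by
    have : ψ x = 0 := hBf _ fun z => by
      obtain ⟨y, rfl⟩ := ψ.surjective z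
      have := hx y
      simpa [QuadraticMap.polar, Qv, map_add] using this
    simpa using this
  let C : OQ Qv ≃* OQ Qf := OQCongr ψ fun x => rfl
  have hC : (oqToGL Qf).comp C.toMonoidHom = Φ.comp (oqToGL Qv) := by
    refine MonoidHom.ext fun g => Units.ext (Matrix.ext_of_mulVec_single fun a => ?_)
    obtain ⟨x, hx⟩ := ψ.surjective (Pi.single a 1)
    rw [← hx]
    show ((oqToGL Qf (C g) : GL ι F) : Matrix ι ι F) *ᵥ ψ x =
      (Φ (oqToGL Qv g) : Matrix ι ι F) *ᵥ powVec e P x
    rw [oqToGL_mulVec, hΦ, powAlg_mulVec, oqToGL_mulVec]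
    show ψ (g.1 (ψ.symm (ψ x))) = _
    rw [LinearEquiv.symm_apply_apply]
    rfl
  have hΩ : (commutator (OQ Qv)).map (Φ.comp (oqToGL Qv)) = omegaGL Q := by
    rw [← hC, ← Subgroup.map_map, map_commutator_top_of_equiv C, map_oqToGL_commutator, hQf,
      GeoClasses.coe_toQF]
  have hΦinj : Function.Injective Φ := (Units.mapEquiv φ.toMulEquiv).injective
  have hsurj : Function.Surjective Φ := (Units.mapEquiv φ.toMulEquiv).surjective
  have hwr : ∀ g ∈ tensorWreathStandard k t F, Φ g ∈ tensorWreathSubgroup k t e P := fun g hg =>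
    ⟨_, ⟨g, hg, rfl⟩, Units.ext rfl⟩
  -- squares of isometries
  have hsq : ∀ u : GL (Fin t → Fin k) F,
      (u : Matrix (Fin t → Fin k) (Fin t → Fin k) F)ᵀ * gV G t *
        (u : Matrix (Fin t → Fin k) (Fin t → Fin k) F) = gV G t → Φ (u * u) ∈ omegaGL Q := by
    intro u hu
    obtain ⟨g, rfl⟩ := L.exists_oq h2 hu
    rw [← hΩ, ← map_mul]
    exact ⟨g * g, Forms.mul_self_mem_commutator hB (OrthGen.notExceptional_of_two_ne_zero h2) g, rfl⟩
  have hSys : ∀ K, tensorWreathSubgroup k t e P ⊓ omegaGL Q ≤ K → K ≤ omegaGL Q →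
      Sys G (K.comap Φ) := by
    intro K hle hK
    have hiso : ∀ g ∈ K.comap Φ, ((g : Matrix (Fin t → Fin k) (Fin t → Fin k) F))ᵀ * gV G t *
        (g : Matrix (Fin t → Fin k) (Fin t → Fin k) F) = gV G t := by
      intro g hg
      obtain ⟨k', -, hk'⟩ : Φ g ∈ (commutator (OQ Qv)).map (Φ.comp (oqToGL Qv)) := hΩ ▸ hK hg
      obtain rfl : oqToGL Qv k' = g := hΦinj hk'
      refine Matrix.ext fun a b => ?_
      have := OQ_polar k' (Pi.single a 1) (Pi.single b 1)
      rw [← oqToGL_mulVec, ← oqToGL_mulVec, L.polar_eq, L.polar_eq] at this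
      have h' := mul_left_cancel₀ hc₀ this
      rw [Matrix.mulVec_mulVec, ← Matrix.vecMul_transpose, ← Matrix.dotProduct_mulVec,
        Matrix.mulVec_mulVec, ← mul_assoc] at h'
      simpa [Matrix.mulVec_single_one, single_dotProduct] using h'
    refine ⟨hGsym, hGdet, h2, hk, ht, fun j u y hu hy => ?_, fun π hπ => ?_, hiso⟩
    · have hsymB : ∀ a b, gB G a b = gB G b a := fun a b => by
        rw [gB_apply, gB_apply, fG, fG, ← dotProduct_mulVec, dotProduct_comm a (G *ᵥ b),
          ← vecMul_transpose, hGsym]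
      obtain ⟨z, hz⟩ : ∃ z, z = (2 : F)⁻¹ • y := ⟨_, rfl⟩
      have huz : gB G u z = 0 := by simp [hz, hy]
      have hzu : gB G z u = 0 := by rw [hsymB, huz]
      have hnz : gB G u (-z) = 0 := by simp [huz]
      have hzz : z + z = y := by rw [hz, ← add_smul, ← two_mul, mul_inv_cancel₀ h2, one_smul]
      have hmul : ∀ p r, gB G u p = 0 → gB G u r = 0 →
          (1 + sieM G u p) * (1 + sieM G u r) = 1 + sieM G u (p + r) := by
        intro p r hp hr
        simp only [sieM, mul_add, add_mul, mul_sub, sub_mul, mul_one, one_mul, smul_mul_assoc,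
          mul_smul_comm, cr_mul, hu, hp, hr, hsymB p u, zero_smul, smul_zero, cr_add_left, cr_add_right,
          map_add, LinearMap.add_apply, hsymB r p]
        match_scalars <;> field_simp <;> ring
      have h0 : sieM G u (0 : Fin k → F) = 0 := by simp [sieM]
      let g : GL (Fin k) F :=
        { val := 1 + sieM G u z
          inv := 1 + sieM G u (-z)
          val_inv := by rw [hmul _ _ huz hnz, add_neg_cancel, h0, add_zero]
          inv_val := by rw [hmul _ _ hnz huz, neg_add_cancel, h0, add_zero] }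
      have hgiso : (g : Matrix (Fin k) (Fin k) F)ᵀ * G * (g : Matrix (Fin k) (Fin k) F) = G := by
        have hcr : ∀ a b, (cr G a b)ᵀ * G = G * cr G b a := fun a b => by
          rw [cr, cr, transpose_vecMulVec, vecMulVec_mul, mul_vecMulVec, ← vecMul_transpose, hGsym]
        have e1 : (sieM G u z)ᵀ * G = G * sieM G u (-z) := by
          simp only [sieM, transpose_sub, transpose_smul, sub_mul, smul_mul_assoc, hcr, mul_sub,
            mul_smul_comm, map_neg, LinearMap.neg_apply, neg_neg]
          rw [show cr G (-z) u = (-1 : F) • cr G z u by rw [← cr_smul_left, neg_one_smul],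
            show cr G u (-z) = (-1 : F) • cr G u z by rw [← cr_smul_right, neg_one_smul]]
          simp only [mul_smul_comm]
          module
        show (1 + sieM G u z)ᵀ * G * (1 + sieM G u z) = G
        rw [transpose_add, transpose_one, add_mul, one_mul, e1, ← mul_one_add G, mul_assoc,
          hmul _ _ hnz huz, neg_add_cancel, h0, add_zero, mul_one]
      set w := glPure (Function.update (1 : Fin t → GL (Fin k) F) j g)
      have hw : (w : Matrix (Fin t → Fin k) (Fin t → Fin k) F) = site j (1 + sieM G u z) := by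
        show pureMat _ = _
        rw [site]
        congr 1
        funext i
        by_cases hi : i = j
        · subst hi; simp [g]
        · simp [hi]
      refine ⟨w * w, hle ⟨hwr _ ?_, hsq w ?_⟩, ?_⟩
      · exact mul_mem (Subgroup.subset_closure (Or.inl ⟨_, fun x y => rfl⟩))
          (Subgroup.subset_closure (Or.inl ⟨_, fun x y => rfl⟩))
      · show (pureMat _)ᵀ * pureMat _ * pureMat _ = pureMat _
        rw [pureMat_transpose, pureMat_mul, pureMat_mul]
        congr 1
        funext i
        by_cases hi : i = j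
        · subst hi; simpa using hgiso
        · simp [hi]
      · rw [Units.val_mul, hw, site_mul, hmul _ _ huz huz, hzz, site_add, site_one]
    · set w := glFactorPerm (F := F) k π * glFactorPerm k π
      have hw : w * w = glFactorPerm k π := by
        refine Units.ext ?_
        show factorPerm k π * factorPerm k π * (factorPerm k π * factorPerm k π) = factorPerm k π
        rw [factorPerm_mul, factorPerm_mul]
        congr 1
        have h3 := hπ.orderOf
        rw [show π * π * (π * π) = π ^ (3 + 1) by rw [pow_succ, pow_succ, pow_succ, pow_one]; group,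
          pow_succ, ← h3, pow_orderOf_eq_one, one_mul]
      have hmem : glFactorPerm (F := F) k π ∈ tensorWreathStandard k t F :=
        Subgroup.subset_closure (Or.inr ⟨π, fun x y => rfl⟩)
      have h1 : Φ (glFactorPerm k π) ∈ omegaGL Q := by
        rw [← hw]
        refine hsq w ?_
        show (factorPerm k π * factorPerm k π)ᵀ * pureMat _ * (factorPerm k π * factorPerm k π) = pureMat _
        rw [factorPerm_mul, factorPerm_transpose_mul, mul_assoc, pureMat_mul_factorPerm, ← mul_assoc,
          factorPerm_mul, inv_mul_cancel, factorPerm_one, one_mul]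
      exact hle ⟨hwr _ hmem, h1⟩
  refine ⟨lt_of_le_of_ne inf_le_right ?_, fun K hle hK => ?_⟩
  · intro heq
    have hS := hSys (omegaGL Q) inf_le_right le_rfl
    obtain ⟨g, hg, hgne⟩ := exists_not_pure hS L hB
    have hin : Φ (oqToGL Qv g) ∈ tensorWreathSubgroup k t e P := by
      have : Φ (oqToGL Qv g) ∈ tensorWreathSubgroup k t e P ⊓ omegaGL Q := by
        rw [heq, ← hΩ]; exact ⟨g, hg, rfl⟩
      exact this.1
    obtain ⟨gs, π, hgs⟩ := mem_wreath_powAlg hin
    rw [hΦ] at hgs
    exact hgne gs π (φ.injective hgs)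
  have hS := hSys K hle hK
  by_cases hsingle : Single G (K.comap Φ)
  · right
    refine le_antisymm hK ?_
    rw [← hΩ, ← Subgroup.map_map, Subgroup.map_le_iff_le_comap, Subgroup.map_le_iff_le_comap]
    exact hS.commutator_le L hB hsingle
  · left
    refine le_antisymm (fun x hx => ⟨?_, hK hx⟩) hle
    obtain ⟨g, rfl⟩ := hsurj x
    obtain ⟨cs, π, hg⟩ := hS.pure_of_no_single hsingle hx
    refine hwr g ?_
    rw [show g = glPure cs * glFactorPerm k π from Units.ext hg]
    exact mul_mem (Subgroup.subset_closure (Or.inl ⟨cs, fun x y => rfl⟩))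
      (Subgroup.subset_closure (Or.inr ⟨π, fun x y => rfl⟩))

end Cfsg.Agent.MaxSub.OrthWreathBig
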