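import Cfsg.Agent.MaxSub.OrthWreathBig.Tame
import Cfsg.Agent.MaxSub.QuadPair.Main

/-!
Without members with one long root site, the conjugates of long root elements of the sites act at one
site, and the group lies in the wreath product.
-/

set_option autoImplicit false
set_option linter.unusedSectionVars false
set_option linter.unusedSimpArgs false
set_option linter.style.haveILetI false

namespace Cfsg.Agent.MaxSub.OrthWreathBig

open Matrix Module Cfsg.Agent.NotMax Cfsg.Agent.GeoClasses Cfsg.Agent.MaxSub.TensorPowSp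
open Cfsg.Agent.MaxSub.OrthTensor (Sym Hyp Pair₂)

variable {F : Type*} [Field F] {k t : ℕ} {G : Matrix (Fin k) (Fin k) F}
  {M : Subgroup (GL (Fin t → Fin k) F)}

lemma bcomp_mat_sub (m : Fin t) (a b : Fin k → F)
    (B B' : Matrix (Fin t → Fin k) (Fin t → Fin k) F) :
    bcomp G m a b (B - B') = bcomp G m a b B - bcomp G m a b B' := by
  simp only [bcomp, map_sub, Matrix.sub_apply, smul_sub, Finset.sum_sub_distrib]

lemma bcomp_mat_add (m : Fin t) (a b : Fin k → F)
    (B B' : Matrix (Fin t → Fin k) (Fin t → Fin k) F) :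
    bcomp G m a b (B + B') = bcomp G m a b B + bcomp G m a b B' := by
  simp only [bcomp, map_add, Matrix.add_apply, smul_add, Finset.sum_add_distrib]

lemma bcomp_mat_smul (m : Fin t) (a b : Fin k → F) (s : F)
    (B : Matrix (Fin t → Fin k) (Fin t → Fin k) F) :
    bcomp G m a b (s • B) = s • bcomp G m a b B := by
  simp only [bcomp, map_smul, Matrix.smul_apply, Finset.smul_sum, smul_comm s]

namespace Sys

variable (h : Sys G M)
include h

/-- Changing the site of a matrix. -/
lemma site_change (i j : Fin t) (X : Matrix (Fin k) (Fin k) F) :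
    site i X = factorPerm k (Equiv.swap i j) * site j X * factorPerm k (Equiv.swap i j) := by
  rw [site, site, mul_assoc, pureMat_mul_factorPerm, ← mul_assoc, factorPerm_mul, Equiv.swap_mul_self,
    factorPerm_one, one_mul]
  congr 1
  funext l
  by_cases hl : l = i
  · subst hl; simp
  · rw [Function.update_of_ne hl, Function.update_of_ne (show Equiv.swap i j l ≠ j from fun e =>
      hl ((Equiv.swap i j).injective (by rw [e, Equiv.swap_apply_left])))]
    rfl

lemma nn_ne_zero {v c : Fin k → F} (hp : Pair₂ (gB G) v c) : nn G v c ≠ 0 := by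
  obtain ⟨v', c', hv, hc, h3, h2, h4⟩ := h.hg.exists_companions hp
  intro e
  have := congrArg (fun X => X *ᵥ c') e
  simp only [nn, sub_mulVec, cr_mulVec, hc.2.2, h2, one_smul, zero_smul, sub_zero, zero_mulVec] at this
  exact hp.1 this

variable [Finite F]

/-- The rank of a long root element of a site does not depend on the pair or on the site. -/
lemma rank_le {v c p r : Fin k → F} (hp : Pair₂ (gB G) v c) (i j : Fin t)
    (A B : Matrix (Fin t → Fin k) (Fin t → Fin k) F) :
    finrank F (LinearMap.range (Matrix.toLinAlgEquiv' (A * site i (nn G p r) * B))) ≤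
      finrank F (LinearMap.range (Matrix.toLinAlgEquiv' (site j (nn G v c)))) := by
  obtain ⟨v', c', hv, hc, h3, h2, h4⟩ := h.hg.exists_companions hp
  have e : nn G p r = (cr G p v' + cr G r c') * nn G v c * (cr G v' p + cr G c' r) := by
    have v'v : gB G v' v = 1 := by rw [h.hg.symm, hv.2.2]
    have c'c : gB G c' c = 1 := by rw [h.hg.symm, hc.2.2]
    have c'v : gB G c' v = 0 := by rw [h.hg.symm, h2]
    have cv' : gB G c v' = 0 := by rw [h.hg.symm, h3]
    simp only [nn, add_mul, mul_add, mul_sub, sub_mul, cr_mul, v'v, c'c, c'v, h3, hv.2.2, hc.2.2, h2,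
      cv', one_smul, zero_smul, sub_zero, zero_sub, add_zero, zero_add, neg_mul, smul_mul_assoc]
    abel
  rw [h.site_change i j (nn G p r), e, ← site_mul, ← site_mul]
  set T := Matrix.toLinAlgEquiv' (R := F) (n := Fin t → Fin k)
  have hmul : ∀ X Y Z : Module.End F ((Fin t → Fin k) → F),
      finrank F (LinearMap.range (X * Y * Z)) ≤ finrank F (LinearMap.range Y) := fun X Y Z => by
    refine le_trans (Submodule.finrank_mono (LinearMap.range_comp_le_range Z (X * Y))) ?_
    rw [Module.End.mul_eq_comp, LinearMap.range_comp]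
    exact Submodule.finrank_map_le _ _
  exact le_trans (le_of_eq (by rw [← map_mul, ← map_mul]; exact congrArg (fun X => finrank F (LinearMap.range (T X))) (by simp only [mul_assoc])))
    (hmul (T (A * factorPerm k (Equiv.swap i j) * site j (cr G p v' + cr G r c'))) (T (site j (nn G v c)))
      (T (site j (cr G v' p + cr G c' r) * factorPerm k (Equiv.swap i j) * B)))

/-- The conjugates of long root elements of sites have scalar pairings with all of them. -/
lemma pairing (hno : ¬ Single G M) {g : GL (Fin t → Fin k) F} (hg : g ∈ M) (i : Fin t)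
    {p r : Fin k → F} (hpr : Pair₂ (gB G) p r) (j : Fin t) {v c : Fin k → F}
    (hp : Pair₂ (gB G) v c) :
    ∃ s : F, site j (nn G v c) *
      ((g : Matrix (Fin t → Fin k) (Fin t → Fin k) F) * site i (nn G p r) *
        ((g⁻¹ : GL (Fin t → Fin k) F) : Matrix (Fin t → Fin k) (Fin t → Fin k) F)) *
      site j (nn G v c) = s • site j (nn G v c) := by
  set T := Matrix.toLinAlgEquiv' (R := F) (n := Fin t → Fin k) with hT
  set L := (g : Matrix (Fin t → Fin k) (Fin t → Fin k) F) * site i (nn G p r) *
    ((g⁻¹ : GL (Fin t → Fin k) F) : Matrix (Fin t → Fin k) (Fin t → Fin k) F) with hL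
  set N := site j (nn G v c) with hN
  set G' : Subgroup (Module.End F ((Fin t → Fin k) → F))ˣ := M.map (Units.map (T : _ →* _))
  have hmem : ∀ X, QuadPair.MemG G' (T X) ↔ InM M (1 + X) := by
    intro X
    constructor
    · rintro ⟨_, ⟨u, hu, rfl⟩, hue⟩
      exact ⟨u, hu, T.injective (by rw [map_add, map_one]; exact hue)⟩
    · rintro ⟨u, hu, hue⟩
      exact ⟨_, ⟨u, hu, rfl⟩, by
        show T (u : Matrix (Fin t → Fin k) (Fin t → Fin k) F) = _
        rw [hue, map_add, map_one]⟩
  obtain ⟨v', c', hv, hc, h3, h2, h4⟩ := h.hg.exists_companions hp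
  have hNN : N * N = 0 := by rw [hN, site_mul, h.nn_sq hp, site_zero]
  have hLL : L * L = 0 := by
    simp only [hL, mul_assoc, Units.inv_mul_cancel_left]
    rw [← mul_assoc (site i _) (site i _), site_mul, h.nn_sq hpr, site_zero, zero_mul, mul_zero]
  have hP : QuadPair.Pair G' (T N) (T L) := by
    refine ⟨by rw [← map_mul, hNN, map_zero], by rw [← map_mul, hLL, map_zero], h.rank_le hp i j _ _,
      fun s => ?_, fun s => ?_⟩
    · rw [← map_smul, hmem]; exact h.nn_mem hp j s
    · rw [← map_smul, hmem]
      convert InM.conj (h.nn_mem hpr i s) hg using 2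
      rw [hL, mul_smul_comm, smul_mul_assoc]
  have v'v : gB G v' v = 1 := by rw [h.hg.symm, hv.2.2]
  have c'c : gB G c' c = 1 := by rw [h.hg.symm, hc.2.2]
  have c'v : gB G c' v = 0 := by rw [h.hg.symm, h2]
  have cv' : gB G c v' = 0 := by rw [h.hg.symm, h3]
  have hP1 : site j (cr G v v' + cr G c c') * N = N := by
    rw [hN, site_mul]
    congr 1
    simp [nn, mul_sub, add_mul, cr_mul, v'v, c'c, h3, c'v]
    try abel
  have hP2 : N * site j (cr G v' v + cr G c' c) = N := by
    rw [hN, site_mul]
    congr 1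
    simp [nn, mul_add, sub_mul, cr_mul, hv.2.2, hc.2.2, h2, cv']
    try abel
  have hfix : ∀ Y : Module.End F ((Fin t → Fin k) → F),
      LinearMap.range Y ≤ LinearMap.range (T N) →
        site j (cr G v v' + cr G c c') * T.symm Y = T.symm Y := by
    intro Y hY
    refine T.injective ?_
    rw [map_mul, AlgEquiv.apply_symm_apply]
    refine LinearMap.ext fun x => ?_
    obtain ⟨y, hy⟩ := hY ⟨x, rfl⟩
    rw [Module.End.mul_apply, ← hy, ← Module.End.mul_apply, ← map_mul, hP1]
  have hTame : QuadPair.Tame G' (T N) := by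
    refine ⟨fun Y hr hk hY => ?_, fun u hu r hu1 hu2 hu3 => ?_⟩
    · have hright : T.symm Y * site j (cr G v' v + cr G c' c) = T.symm Y := by
        refine T.injective ?_
        rw [map_mul, AlgEquiv.apply_symm_apply]
        refine LinearMap.ext fun x => ?_
        have hx : x - T (site j (cr G v' v + cr G c' c)) x ∈ LinearMap.ker (T N) := by
          rw [LinearMap.mem_ker, map_sub, ← Module.End.mul_apply, ← map_mul, hP2, sub_self]
        have := LinearMap.mem_ker.1 (hk hx)
        rw [map_sub, sub_eq_zero] at this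
        rw [Module.End.mul_apply, ← this]
      obtain ⟨s, hs⟩ := h.root hno hp hv hc h3 h2 h4 j (hfix Y hr) hright
        (by rwa [← hmem, AlgEquiv.apply_symm_apply])
      exact ⟨s, by rw [← map_smul, ← hs, AlgEquiv.apply_symm_apply]⟩
    · obtain ⟨w, hw, rfl⟩ := hu
      obtain ⟨r', rfl⟩ : ∃ r', r = T r' := ⟨T.symm r, (T.apply_symm_apply r).symm⟩
      obtain ⟨s, hs⟩ := h.diag hno hp hv hc h3 h2 h4 j hw (r := r')
        (T.injective (by rw [map_mul, map_mul]; exact hu1))
        (T.injective (by rw [map_mul, map_mul]; exact hu2))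
        fun Z hZ => T.injective (LinearMap.ext fun x => by
          rw [map_mul, Module.End.mul_apply]
          have hker : T N (T Z x) = 0 := by
            rw [← Module.End.mul_apply, ← map_mul, hZ, map_zero, LinearMap.zero_apply]
          obtain ⟨y, hy⟩ := hu3 _ hker
          have e : T ((w : Matrix (Fin t → Fin k) (Fin t → Fin k) F) * Z - Z) x = T N y := by
            rw [hy, map_sub, LinearMap.sub_apply, map_mul, Module.End.mul_apply]; rfl
          rw [e, ← Module.End.mul_apply, ← map_mul, hP1])
      exact ⟨s, by rw [← map_mul, hs, map_smul]⟩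
  obtain ⟨s, hs⟩ := QuadPair.pairing_scalar h.two hP hTame
  exact ⟨s, T.injective (by rw [map_mul, map_mul, map_smul]; exact hs)⟩

/-- Scalar pairings determine the compressions. -/
lemma compressions {L : Matrix (Fin t → Fin k) (Fin t → Fin k) F} (j : Fin t)
    (hL : ∀ v c, Pair₂ (gB G) v c →
      ∃ s : F, site j (nn G v c) * L * site j (nn G v c) = s • site j (nn G v c)) :
    ∃ X C, L = site j X + emb j C := by
  classical
  have hpair : ∀ v c, Pair₂ (gB G) v c →
      bcomp G j v v L = 0 ∧ ∃ s : F, bcomp G j c v L = s • 1 := by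
    intro v c hp
    obtain ⟨s, hs⟩ := hL v c hp
    obtain ⟨v', c', hv, hc, h3, h2, h4⟩ := h.hg.exists_companions hp
    have v'v : gB G v' v = 1 := by rw [h.hg.symm, hv.2.2]
    have c'c : gB G c' c = 1 := by rw [h.hg.symm, hc.2.2]
    have c'v : gB G c' v = 0 := by rw [h.hg.symm, h2]
    have cv' : gB G c v' = 0 := by rw [h.hg.symm, h3]
    rw [nn, map_sub (siteHom j) (cr G v c) (cr G c v) |> (fun e => (e : site j _ = _))] at hs
    simp only [siteHom_apply, sub_mul, mul_sub, site_cr_sandwich] at hs
    have key : ∀ a b, bcomp G j a b (site j (cr G v c) - site j (cr G c v)) =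
        (gB G a (cr G v c *ᵥ b) - gB G a (cr G c v *ᵥ b)) • 1 := by
      intro a b
      rw [bcomp_mat_sub, ← mul_one (site j (cr G v c)), ← mul_one (site j (cr G c v)),
        ← map_one (emb j), bcomp_site_emb, bcomp_site_emb, sub_smul]
    refine ⟨?_, s, ?_⟩
    · have := congrArg (bcomp G j c' c') hs
      simp only [bcomp_mat_sub, bcomp_site_emb, bcomp_mat_smul, key, cr_mulVec, map_smul, hv.2.2,
        hc.2.2, h2, cv', v'v, c'c, c'v, h3, smul_eq_mul, mul_zero, zero_mul, one_mul, mul_one,
        zero_smul, one_smul, sub_zero, zero_sub, smul_zero, neg_zero, sub_self] at this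
      simpa using this
    · have := congrArg (bcomp G j v' c') hs
      simp only [bcomp_mat_sub, bcomp_site_emb, bcomp_mat_smul, key, cr_mulVec, map_smul, hv.2.2,
        hc.2.2, h2, cv', v'v, c'c, c'v, h3, smul_eq_mul, mul_zero, zero_mul, one_mul, mul_one,
        zero_smul, one_smul, sub_zero, zero_sub, smul_zero, neg_zero, sub_self] at this
      simpa using this
  let Z := Submodule.span F {(1 : Matrix (Rest k j) (Rest k j) F)}
  obtain ⟨C, hC⟩ := h.bilin ((bB G j L).compr₂ Z.mkQ)
    (fun a ha => by
      rcases eq_or_ne a 0 with rfl | ha0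
      · simp
      · obtain ⟨c, hc⟩ := h.hg.exists_pair₂ h.finrank_five ha ha0
        simp [bB_apply, (hpair a c hc).1])
    (fun a b hab => by
      obtain ⟨s, hs⟩ := (hpair b a (h.pair_symm hab)).2
      rw [LinearMap.compr₂_apply, bB_apply, hs, map_smul, Submodule.mkQ_apply,
        (Submodule.Quotient.mk_eq_zero Z).2 (Submodule.mem_span_singleton_self _), smul_zero])
  obtain ⟨C, rfl⟩ := Submodule.mkQ_surjective Z C
  obtain ⟨X, hX⟩ := h.eq_site_add_emb j (B := L) (C := C) fun a b => by
    have := hC a b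
    rw [LinearMap.compr₂_apply, bB_apply, ← map_smul, Submodule.mkQ_apply, Submodule.mkQ_apply,
      Submodule.Quotient.eq] at this
    obtain ⟨s, hs⟩ := Submodule.mem_span_singleton.1 this
    exact ⟨s, by rw [hs]; abel⟩
  exact ⟨X, C, hX⟩

omit [Finite F] in
/-- Square zero matrices of that shape at every site act at one site. -/
lemma site_of_shape [Finite F] {L : Matrix (Fin t → Fin k) (Fin t → Fin k) F} (hLL : L * L = 0)
    (hL : ∀ j, ∃ X C, L = site j X + emb j C) : ∃ j X, L = site j X := by
  haveI := h.nz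
  choose X C hX using hL
  by_cases hs : ∃ j, ∀ a : F, X j ≠ a • 1
  · obtain ⟨j, hj⟩ := hs
    obtain ⟨φ, hφ1, hφX⟩ := exists_functional hj
    have e := congrArg (lift j φ) hLL
    rw [hX j, add_mul, mul_add, mul_add, site_mul, ← (site_comm_emb j (X j) (C j)).eq,
      ← map_mul (emb j) (C j) (C j), map_add, map_add, map_add, lift_site, lift_site_emb, lift_emb,
      hφ1, hφX, zero_smul, add_zero, one_smul, map_zero] at e
    have hCs : C j = (-(2 : F)⁻¹ * φ (X j * X j)) • 1 := by
      have h2 : (2 : F) • C j = -(φ (X j * X j) • (1 : Matrix (Rest k j) (Rest k j) F)) := by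
        rw [two_smul, eq_neg_iff_add_eq_zero, ← e]; abel
      have := congrArg (((2 : F)⁻¹) • ·) h2
      simpa [smul_smul, inv_mul_cancel₀ h.two, neg_smul] using this
    refine ⟨j, X j + (-(2 : F)⁻¹ * φ (X j * X j)) • 1, ?_⟩
    rw [hX j, hCs, map_smul, map_one, site_add, site_smul, site_one]
  · push Not at hs
    obtain ⟨s, rfl⟩ := h.scalar_of_commute (B := L) fun i a b _ => by
      obtain ⟨r, hr⟩ := hs i
      rw [hX i, hr, site_smul, site_one]
      exact ((Commute.one_right _).smul_right r).add_right (site_comm_emb i _ _)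
    haveI : NeZero t := ⟨by have := h.tpos; omega⟩
    exact ⟨0, s • 1, by rw [site_smul, site_one]⟩

/-- **Without members with one long root site the group lies in the wreath product.** -/
theorem pure_of_no_single (hno : ¬ Single G M) {g : GL (Fin t → Fin k) F} (hgM : g ∈ M) :
    ∃ (cs : Fin t → GL (Fin k) F) (π : Equiv.Perm (Fin t)),
      (g : Matrix (Fin t → Fin k) (Fin t → Fin k) F) =
        pureMat (fun i => (cs i : Matrix (Fin k) (Fin k) F)) * factorPerm k π := by
  classical
  haveI := h.nz
  haveI : NeZero t := ⟨by have := h.tpos; omega⟩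
  have hg : ∀ i a b, Pair₂ (gB G) a b → ∃ j X, conjGL g (site i (nn G a b)) = site j X := by
    intro i a b hab
    rw [conjGL_apply]
    refine h.site_of_shape ?_ fun j => h.compressions j fun v c hvc => h.pairing hno hgM i hab j hvc
    simp only [mul_assoc, Units.inv_mul_cancel_left]
    rw [← mul_assoc (site i _) (site i _), site_mul, h.nn_sq hab, site_zero, zero_mul, mul_zero]
  choose! J X hJ using hg
  have hnc : ∀ i a b a' z, Pair₂ (gB G) a b → Pair₂ (gB G) a' z → gB G a a' = 1 → gB G b a' = 0 →
      gB G z b ≠ 0 → J i a b = J i a' z := by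
    intro i a b a' z hab ha'z h1 h2 h3
    by_contra hne
    have hcomm := site_comm hne (X i a b) (X i a' z)
    rw [← hJ i a b hab, ← hJ i a' z ha'z, ← map_mul, ← map_mul, site_mul, site_mul] at hcomm
    have e := congrArg (fun D => gB G a (D *ᵥ a')) (site_injective i ((conjGL g).injective hcomm))
    simp only [nn, ← mulVec_mulVec, sub_mulVec, cr_mulVec, map_sub, map_smul, LinearMap.sub_apply,
      LinearMap.smul_apply, smul_eq_mul, h.hg.symm z a', ha'z.2.2.2.2, ha'z.2.2.1, hab.2.2.1,
      hab.2.2.2.2, h.hg.symm b a, h.hg.symm a' a, h1, h2, h.hg.symm a' b] at e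
    simp only [mul_one, one_mul, mul_zero, zero_mul, sub_zero, zero_sub, sub_self, neg_neg] at e
    apply h3
    first
      | linear_combination e
      | linear_combination -e
  have hsame : ∀ i a b c, Pair₂ (gB G) a b → Pair₂ (gB G) a c →
      J i a b = J i a c ∧ J i b a = J i a b := by
    intro i a b c hab hac
    obtain ⟨a', ha'⟩ := h.hg.exists_hyp hab.2.2.1 hab.1
    have hfix : ∀ b, Pair₂ (gB G) a b → ∃ b1, Pair₂ (gB G) a b1 ∧ nn G a b1 = nn G a b ∧
        gB G b1 a' = 0 ∧ b1 ∉ F ∙ a' := by
      intro b hb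
      refine ⟨b - gB G b a' • a, ⟨hb.1, fun hm => hb.2.1 ?_, hb.2.2.1, ?_, ?_⟩, ?_, ?_, fun hm => ?_⟩
      · have := add_mem hm (Submodule.smul_mem _ (gB G b a') (Submodule.mem_span_singleton_self a))
        rwa [sub_add_cancel] at this
      · simp [hb.2.2.1, hb.2.2.2.1, hb.2.2.2.2, h.hg.symm b a]
      · simp [hb.2.2.1, hb.2.2.2.2]
      · rw [nn, nn, sub_eq_add_neg b, ← neg_smul, cr_add_left, cr_add_right, cr_smul_left, cr_smul_right]
        abel
      · simp [ha'.2.2]
      · obtain ⟨l, hl⟩ := Submodule.mem_span_singleton.1 hm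
        have := congrArg (gB G a) hl
        simp [ha'.2.2, hb.2.2.1, hb.2.2.2.2] at this
        rw [this, zero_smul] at hl
        exact hb.2.1 (Submodule.mem_span_singleton.2 ⟨gB G b a', (sub_eq_zero.1 hl.symm).symm⟩)
    obtain ⟨b1, hb1, eb, hb1a, hb1'⟩ := hfix b hab
    obtain ⟨c1, hc1, ec, hc1a, hc1'⟩ := hfix c hac
    obtain ⟨z, hz, haz, hzb, hzc⟩ := h.mid hb1' hc1' hb1.2.2.2.1 hc1.2.2.2.1
      (by rw [h.hg.symm, hb1a]) (by rw [h.hg.symm, hc1a])
    have ha'0 : a' ≠ 0 := fun e => by simpa [e] using ha'.2.2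
    have hp : Pair₂ (gB G) a' z := ⟨ha'0, fun hm => by
      obtain ⟨l, rfl⟩ := Submodule.mem_span_singleton.1 hm
      simp [h.hg.symm a' b1, hb1a] at hzb, ha'.2.1, hz, haz⟩
    have Jeq : ∀ x y x' y', Pair₂ (gB G) x y → Pair₂ (gB G) x' y' →
        (nn G x y = nn G x' y' ∨ nn G x y = -nn G x' y') → J i x y = J i x' y' := by
      intro x y x' y' hxy hxy' e
      by_contra hne
      have e1 : conjGL g (site i (nn G x y)) = conjGL g (site i (nn G x' y')) ∨
          conjGL g (site i (nn G x y)) = -conjGL g (site i (nn G x' y')) := by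
        rcases e with e | e
        · exact Or.inl (by rw [e])
        · exact Or.inr (by rw [e, site_neg, map_neg])
      have hcom : ∀ l W, Commute (site l W) (conjGL g (site i (nn G x y))) := by
        intro l W
        by_cases hl : l = J i x y
        · rcases e1 with e1 | e1 <;> rw [e1, hJ i x' y' hxy']
          · exact site_comm (hl ▸ hne) _ _
          · exact (show Commute (site l W) (site (J i x' y') (X i x' y')) from
              site_comm (hl ▸ hne) _ _).neg_right
        · rw [hJ i x y hxy]; exact site_comm hl _ _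
      obtain ⟨s, hs⟩ := h.scalar_of_commute fun l a b _ => hcom l (nn G a b)
      have hsq : conjGL g (site i (nn G x y)) * conjGL g (site i (nn G x y)) = 0 := by
        rw [← map_mul, site_mul, h.nn_sq hxy, site_zero, map_zero]
      rw [hs, smul_mul_smul_comm, one_mul, smul_eq_zero] at hsq
      have : conjGL g (site i (nn G x y)) = 0 := by
        rcases hsq with e' | e'
        · rw [hs, mul_self_eq_zero.1 e', zero_smul]
        · exact absurd e' one_ne_zero
      exact h.nn_ne_zero hxy (site_injective i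
        (((conjGL g).injective (this.trans (map_zero _).symm)).trans (site_zero i).symm))
    have hJb := hnc i a b1 a' z hb1 hp ha'.2.2 hb1a hzb
    have hJc := hnc i a c1 a' z hc1 hp ha'.2.2 hc1a hzc
    refine ⟨?_, ?_⟩
    · rw [← Jeq _ _ _ _ hb1 hab (Or.inl eb), ← Jeq _ _ _ _ hc1 hac (Or.inl ec), hJb, hJc]
    · exact Jeq _ _ _ _ (h.pair_symm hab) hab (Or.inr (nn_swap _ _))
  have hall : ∀ i a b c d, Pair₂ (gB G) a b → Pair₂ (gB G) c d → J i a b = J i c d := fun i a b c d =>
    h.pairs (fun a b c d => J i a b = J i c d) (fun a b c hb hc => (hsame i a b c hb hc).1)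
      (fun a b hab => ((hsame i a b b hab hab).2).symm) (fun a b c d e f h1 h2 => h1.trans h2)
  obtain ⟨v₀, v₀', hv₀⟩ := h.hg.exists_hyp_any h.finrank_five
  obtain ⟨c₀, hp₀⟩ := h.hg.exists_pair₂ h.finrank_five hv₀.1
    (fun e : v₀ = 0 => by simpa [e] using hv₀.2.2)
  set σ : Fin t → Fin t := fun i => J i v₀ c₀
  have hrange : ∀ i, ∀ Z ∈ (siteHom (F := F) (k := k) i).range,
      conjGL g Z ∈ (siteHom (F := F) (k := k) (σ i)).range := by
    intro i
    let A : Subalgebra F (Matrix (Fin k) (Fin k) F) :=
      ((siteHom (F := F) (k := k) (σ i)).range).comap ((conjGL g).toAlgHom.comp (siteHom i))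
    have hA : A = ⊤ := h.span_nn A fun a b hab => by
      suffices hz' : conjGL g (site i (nn G a b)) ∈ (siteHom (F := F) (k := k) (σ i)).range from hz'
      rw [hJ i a b hab, hall i a b v₀ c₀ hab hp₀]
      exact ⟨_, rfl⟩
    rintro _ ⟨Z, rfl⟩
    exact (hA ▸ Algebra.mem_top : Z ∈ A)
  have hinj : Function.Injective σ := by
    intro i i' e
    by_contra hne
    have hex : ∀ Z, ∃ W, site (σ i) W = conjGL g (site i Z) := fun Z => hrange i (site i Z) ⟨Z, rfl⟩
    choose θ hθ using hex
    let L : Matrix (Fin k) (Fin k) F →ₗ[F] Matrix (Fin k) (Fin k) F :=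
      { toFun := θ
        map_add' := fun a b => site_injective (σ i) (by
          rw [hθ, site_add, map_add, ← hθ, ← hθ, site_add])
        map_smul' := fun c a => site_injective (σ i) (by
          rw [hθ, site_smul, map_smul, ← hθ, RingHom.id_apply, site_smul]) }
    have hL : Function.Injective L := fun a b hab => site_injective i ((conjGL g).injective (by
      rw [← hθ, ← hθ]; exact congrArg _ hab))
    have hcom : ∀ Y, Commute Y (X i' v₀ c₀) := by
      intro Y
      obtain ⟨Z, rfl⟩ := (LinearMap.injective_iff_surjective.1 hL) Y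
      apply site_injective (σ i)
      show site (σ i) (θ Z * X i' v₀ c₀) = site (σ i) (X i' v₀ c₀ * θ Z)
      rw [← site_mul, ← site_mul, hθ,
        show site (σ i) (X i' v₀ c₀) = conjGL g (site i' (nn G v₀ c₀)) by
          rw [hJ i' v₀ c₀ hp₀]; exact congrArg (fun l => site l (X i' v₀ c₀)) e,
        ← map_mul, ← map_mul, site_comm hne]
    obtain ⟨a, ha⟩ := Matrix.mem_range_scalar_iff_commute_single'.2 (fun p q => hcom (Matrix.single p q 1))
    have h1 : conjGL g (site i' (nn G v₀ c₀)) = algebraMap F _ a := by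
      rw [hJ i' v₀ c₀ hp₀, ← ha, Matrix.scalar_apply, ← Matrix.smul_one_eq_diagonal, site_eq_smul_one]
    have h2 : site i' (nn G v₀ c₀) = site i' (a • 1) := by
      rw [site_eq_smul_one]
      exact (conjGL g).injective (h1.trans (AlgEquiv.commutes _ a).symm)
    have h3 := site_injective i' h2
    have h4 := h.nn_sq hp₀
    rw [h3, smul_mul_smul_comm, one_mul, smul_eq_zero] at h4
    rcases h4 with h4 | h4
    · exact h.nn_ne_zero hp₀ (by rw [h3, mul_self_eq_zero.1 h4, zero_smul])
    · exact one_ne_zero h4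
  let π : Equiv.Perm (Fin t) := Equiv.ofBijective σ (Finite.injective_iff_bijective.1 hinj)
  have hL : ∀ i Y, siteHom (F := F) (k := k) i Y =
      conjMat (LinearEquiv.refl F ((Fin t → Fin k) → F)) (pureMat (Function.update 1 i Y)) := by
    intro i Y
    rw [siteHom_apply, conjMat_refl, site]
  obtain ⟨cs, hcs⟩ := normaliser_pure (Nat.pos_of_ne_zero (NeZero.ne k)) hL iSup_range_eq_top
    (fun i => site_injective i) π hrange
  exact ⟨cs, π, hcs.trans (by rw [conjMat_refl])⟩

end Sys

end Cfsg.Agent.MaxSub.OrthWreathBig
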