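import Cfsg.Agent.MaxSub.OrthWreathBig.Long
import Cfsg.Agent.MaxSub.TensorPowSp.Vectors
import Cfsg.Agent.GeoClasses.OrthNondeg
import Cfsg.Agent.GeoClasses.OrthMaxBase

/-!
A long root element of an orthogonal tensor power generates the commutator subgroup of the orthogonal
group together with the sites.
-/

set_option autoImplicit false
set_option linter.unusedSectionVars false
set_option linter.unusedSimpArgs false
set_option linter.style.haveILetI false

namespace Cfsg.Agent.MaxSub.OrthWreathBig

open Matrix Module QuadraticMap Cfsg.Agent.NotMax Cfsg.Agent.GeoClasses Cfsg.Agent.MaxSub.TensorPowSp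
open Cfsg.Agent.Classical
open Cfsg.Agent.MaxSub.OrthTensor (Sym Hyp Pair₂)

variable {F : Type*} [Field F] {k t : ℕ} {G : Matrix (Fin k) (Fin k) F}
  {M : Subgroup (GL (Fin t → Fin k) F)}

lemma pureVec_update (x : Fin t → Fin k → F) (i : Fin t) (z : Fin k → F) (a : Fin t → Fin k) :
    pureVec (Function.update x i z) a = z (a i) * ∏ j ∈ Finset.univ.erase i, x j (a j) := by
  rw [pureVec, ← Finset.mul_prod_erase Finset.univ _ (Finset.mem_univ i), Function.update_self]
  congr 1
  exact Finset.prod_congr rfl fun j hj => by rw [Function.update_of_ne (Finset.ne_of_mem_erase hj)]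

/-- A pure vector as a linear function of one site. -/
noncomputable def slot (x : Fin t → Fin k → F) (i : Fin t) :
    (Fin k → F) →ₗ[F] ((Fin t → Fin k) → F) where
  toFun z := pureVec (Function.update x i z)
  map_add' p q := by
    ext a; simp only [Pi.add_apply, pureVec_update, add_mul]
  map_smul' c p := by
    ext a; simp only [RingHom.id_apply, Pi.smul_apply, smul_eq_mul, pureVec_update, mul_assoc]

lemma slot_apply (x : Fin t → Fin k → F) (i : Fin t) (z : Fin k → F) :
    slot x i z = pureVec (Function.update x i z) := rfl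

lemma pureMat_cr (u w : Fin t → Fin k → F) :
    pureMat (fun i => cr G (u i) (w i)) = vecMulVec (pureVec u) (pureVec w ᵥ* gV G t) := by
  rw [gV, pureVec_vecMul]
  ext a b
  simp [pureMat, pureVec, cr, Matrix.vecMulVec_apply, Finset.prod_mul_distrib]

lemma pureMat_cr_nn (v : Fin t → Fin k → F) (q : Fin t) (a b : Fin k → F) :
    pureMat (Function.update (fun i => cr G (v i) (v i)) q (nn G a b)) =
      vecMulVec (pureVec (Function.update v q a)) (pureVec (Function.update v q b) ᵥ* gV G t) -
      vecMulVec (pureVec (Function.update v q b)) (pureVec (Function.update v q a) ᵥ* gV G t) := by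
  have key : ∀ X : Matrix (Fin k) (Fin k) F,
      pureMat (Function.update (fun i => cr G (v i) (v i)) q X) =
        site q X * pureMat (Function.update (fun i => cr G (v i) (v i)) q 1) := fun X => by
    rw [← pureMat_update_mul _ (Function.update_self q _ _), Function.update_idem]
  have e : ∀ x y : Fin k → F, pureMat (Function.update (fun i => cr G (v i) (v i)) q (cr G x y)) =
      vecMulVec (pureVec (Function.update v q x)) (pureVec (Function.update v q y) ᵥ* gV G t) := by
    intro x y
    rw [← pureMat_cr]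
    congr 1
    funext i
    by_cases hi : i = q
    · subst hi; simp
    · simp [hi]
  rw [key, nn, site_sub, sub_mul, ← key, ← key, e, e]

variable {Qv : QuadraticForm F ((Fin t → Fin k) → F)} {c₀ : F}

/-- The link between the group of matrices and the quadratic form. -/
structure Link (G : Matrix (Fin k) (Fin k) F) (t : ℕ) (Qv : QuadraticForm F ((Fin t → Fin k) → F))
    (c₀ : F) : Prop where
  ne : c₀ ≠ 0
  polar_eq : ∀ x y, polar Qv x y = c₀ * (x ⬝ᵥ gV G t *ᵥ y)

lemma Link.pure (L : Link G t Qv c₀) (y w : Fin t → Fin k → F) :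
    polar Qv (pureVec y) (pureVec w) = c₀ * ∏ i, gB G (y i) (w i) := by
  rw [L.polar_eq, gV, pureMat_mulVec, dotProduct_pureVec]
  congr 1
  exact Finset.prod_congr rfl fun i _ => dotProduct_mulVec _ _ _

lemma Link.apply_self (L : Link G t Qv c₀) (h2 : (2 : F) ≠ 0) (x : (Fin t → Fin k) → F) :
    Qv x = polar Qv x x / 2 := by
  rw [polar_self, two_smul, ← two_mul, mul_div_cancel_left₀ _ h2]

lemma Link.singular (L : Link G t Qv c₀) (h2 : (2 : F) ≠ 0) {y : Fin t → Fin k → F} {i : Fin t}
    (hi : gB G (y i) (y i) = 0) : Qv (pureVec y) = 0 := by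
  rw [L.apply_self h2, L.pure, Finset.prod_eq_zero (Finset.mem_univ i) hi, mul_zero, zero_div]

lemma Link.perp (L : Link G t Qv c₀) {y w : Fin t → Fin k → F} {i : Fin t}
    (hi : gB G (y i) (w i) = 0) : polar Qv (pureVec y) (pureVec w) = 0 := by
  rw [L.pure, Finset.prod_eq_zero (Finset.mem_univ i) hi, mul_zero]

lemma Link.ne_zero (L : Link G t Qv c₀) {y w : Fin t → Fin k → F}
    (h : ∀ i, gB G (y i) (w i) ≠ 0) : polar Qv (pureVec y) (pureVec w) ≠ 0 := by
  rw [L.pure]; exact mul_ne_zero L.ne (Finset.prod_ne_zero_iff.2 fun i _ => h i)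

/-- Matrices preserving the form are isometries. -/
lemma Link.exists_oq (L : Link G t Qv c₀) (h2 : (2 : F) ≠ 0) {u : GL (Fin t → Fin k) F}
    (hu : (u : Matrix (Fin t → Fin k) (Fin t → Fin k) F)ᵀ * gV G t *
      (u : Matrix (Fin t → Fin k) (Fin t → Fin k) F) = gV G t) :
    ∃ g : OQ Qv, oqToGL Qv g = u := by
  refine ⟨⟨LinearEquiv.ofLinearMap
    (Matrix.toLin' (u : Matrix (Fin t → Fin k) (Fin t → Fin k) F))
    (Matrix.toLin' ((u⁻¹ : GL (Fin t → Fin k) F) : Matrix (Fin t → Fin k) (Fin t → Fin k) F))
    (by rw [← Matrix.toLin'_mul, Units.mul_inv, Matrix.toLin'_one])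
    (by rw [← Matrix.toLin'_mul, Units.inv_mul, Matrix.toLin'_one]), fun x => ?_⟩, ?_⟩
  · rw [L.apply_self h2, L.apply_self h2]
    congr 1
    simp only [LinearEquiv.coe_ofLinearMap, Matrix.toLin'_apply, L.polar_eq]
    rw [mulVec_mulVec, ← vecMul_transpose, ← dotProduct_mulVec, mulVec_mulVec, ← mul_assoc, hu]
  · refine Units.ext (Matrix.ext_of_mulVec_single fun a => ?_)
    rw [oqToGL_mulVec]
    rfl

namespace Sys

variable (h : Sys G M) (L : Link G t Qv c₀)
include h L

/-- Root elements of long shape are Eichler transformations. -/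
lemma siegel_mem {l : F} (hl : l ≠ 0) {v : Fin t → Fin k → F} {q : Fin t} {a b : Fin k → F}
    (hr : Root F M (l • pureMat (Function.update (fun i => cr G (v i) (v i)) q (nn G a b))))
    (s : F) (hu : Qv (pureVec (Function.update v q b)) = 0)
    (hv : Qv (pureVec (Function.update v q a)) = 0)
    (hp : polar Qv (pureVec (Function.update v q b)) (s • pureVec (Function.update v q a)) = 0) :
    siegel Qv hu hp ∈ M.comap (oqToGL Qv) := by
  obtain ⟨u, hu', hue⟩ := hr (s * c₀ / l)
  show oqToGL Qv _ ∈ M
  convert hu' using 1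
  refine Units.ext (Matrix.ext_of_mulVec_single fun x => ?_)
  rw [oqToGL_mulVec, siegel_apply, hue, pureMat_cr_nn, QuadraticMap.map_smul, hv, smul_zero, zero_mul,
    zero_smul, sub_zero, polar_smul_left, add_mulVec, one_mulVec, smul_mulVec, smul_mulVec, smul_smul, sub_mulVec,
    vecMulVec_mulVec, vecMulVec_mulVec, L.polar_eq, L.polar_eq, dotProduct_mulVec, dotProduct_mulVec]
  ext p
  simp only [Pi.add_apply, Pi.sub_apply, Pi.smul_apply, smul_eq_mul, MulOpposite.smul_eq_mul_unop,
    MulOpposite.unop_op]
  field_simp [hl]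
  ring

/-- The parameters at a centre. -/
def par (M : Subgroup (GL (Fin t → Fin k) F)) {x : (Fin t → Fin k) → F} (hx : Qv x = 0) :
    Submodule F ((Fin t → Fin k) → F) where
  carrier := {y | ∀ c : F, ∃ hy : polar Qv x (c • y) = 0, siegel Qv hx hy ∈ M.comap (oqToGL Qv)}
  zero_mem' c := ⟨by simp, by
    convert one_mem (M.comap (oqToGL Qv)) using 1
    ext v; simp⟩
  add_mem' := fun {p q} hp hq c => by
    obtain ⟨hp, hp'⟩ := hp c
    obtain ⟨hq, hq'⟩ := hq c
    refine ⟨by rw [smul_add, polar_add_right, hp, hq, add_zero], ?_⟩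
    have := mul_mem hp' hq'
    rw [siegel_mul Qv hx hp hq] at this
    convert this using 1
    exact siegel_congr Qv _ _ _ _ rfl (smul_add c p q)
  smul_mem' := fun a p hp c => by
    obtain ⟨hp, hp'⟩ := hp (c * a)
    refine ⟨by rw [smul_smul]; exact hp, ?_⟩
    convert hp' using 1
    exact siegel_congr Qv _ _ _ _ rfl (smul_smul c a p)

omit h L in
lemma map_mem_par {x y : (Fin t → Fin k) → F} {hx : Qv x = 0} (hy : y ∈ par M hx)
    {g : OQ Qv} (hg : g ∈ M.comap (oqToGL Qv)) (hgx : g.1 x = x) : g.1 y ∈ par M hx := by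
  intro c
  obtain ⟨hy, hy'⟩ := hy c
  have h0 : polar Qv x (c • g.1 y) = 0 := by rw [← map_smul, ← hgx, OQ_polar, hy]
  refine ⟨h0, ?_⟩
  have h1 := mul_mem (mul_mem hg hy') (inv_mem hg)
  rw [siegel_conj] at h1
  convert h1 using 1
  exact siegel_congr Qv _ _ _ _ hgx.symm (map_smul _ _ _).symm

variable [Finite F] {q : Fin t} {l : F} {v : Fin t → Fin k → F} {a₀ b₀ : Fin k → F}
variable (hl : l ≠ 0) (hv : ∀ i, v i ≠ 0 ∧ gB G (v i) (v i) = 0) (hab : Pair₂ (gB G) a₀ b₀)
variable (hroot : Root F M (l • pureMat (Function.update (fun i => cr G (v i) (v i)) q (nn G a₀ b₀))))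
include hl hv hab hroot

/-- All Eichler transformations of two pure vectors differing at the site `q`. -/
lemma diff_mem (u w : Fin t → Fin k → F) (huw : ∀ i, i ≠ q → u i = w i)
    (hs : ∀ i, i ≠ q → u i ≠ 0 ∧ gB G (u i) (u i) = 0) (hq : Pair₂ (gB G) (u q) (w q)) (s : F) :
    ∃ (hw : Qv (pureVec w) = 0) (hp : polar Qv (pureVec w) (s • pureVec u) = 0),
      siegel Qv hw hp ∈ M.comap (oqToGL Qv) := by
  classical
  obtain ⟨l', hl', hr⟩ := root_moved (G := G) hl hroot
    (X' := Function.update (fun i => cr G (u i) (u i)) q (nn G (u q) (w q))) fun i => by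
      by_cases hi : i = q
      · subst hi; rw [Function.update_self, Function.update_self]; exact h.rel_N hab hq
      · rw [Function.update_of_ne hi, Function.update_of_ne hi]
        exact h.rel_E (hv i).1 (hs i hi).1 (hv i).2 (hs i hi).2
  have ew : Function.update u q (w q) = w := by
    funext i
    by_cases hi : i = q
    · subst hi; simp
    · simp [hi, huw i hi]
  have eu : Function.update u q (u q) = u := Function.update_eq_self q u
  have hw : Qv (pureVec w) = 0 := L.singular h.two (i := q) hq.2.2.2.1
  have hu : Qv (pureVec u) = 0 := L.singular h.two (i := q) hq.2.2.1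
  have hp : polar Qv (pureVec w) (s • pureVec u) = 0 := by
    rw [polar_smul_right, L.perp (i := q) (by rw [h.hg.symm, hq.2.2.2.2]), smul_zero]
  refine ⟨hw, hp, ?_⟩
  have := h.siegel_mem L hl' hr s (by rw [ew]; exact hw) (by rw [eu]; exact hu) (by rw [ew, eu]; exact hp)
  convert this using 1
  exact siegel_congr Qv _ _ _ _ (by rw [ew]) (by rw [eu])

variable (a a' c c' : Fin t → Fin k → F)

omit hl hv hab hroot in
/-- A mover turns a parameter into the centre part of an Eichler transformation. -/
lemma step {x : (Fin t → Fin k) → F} {hx : Qv x = 0} {u w y : (Fin t → Fin k) → F}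
    (hy : y ∈ par M hx) {hw : Qv w = 0} {hp : polar Qv w ((1 : F) • u) = 0}
    (hm : siegel Qv hw hp ∈ M.comap (oqToGL Qv))
    (hu0 : Qv u = 0) (hux : polar Qv u x = 0) (hwx : polar Qv w x = 0) :
    (polar Qv w y • u - polar Qv u y • w) ∈ par M hx := by
  have hfix : (siegel Qv hw hp).1 x = x := by simp [hux, hwx, hu0]
  have := sub_mem (map_mem_par hy hm hfix) hy
  convert this using 1
  rw [siegel_apply, one_smul, hu0, zero_mul, zero_smul, sub_zero]
  abel

omit hl hv hab hroot in
/-- Moving one site. -/
lemma slot_moved {x : Fin t → Fin k → F} {hx : Qv (pureVec x) = 0} {y : Fin t → Fin k → F} {i : Fin t}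
    {z : Fin k → F} (hy : slot y i z ∈ par M hx) {u d : Fin k → F} (hu : gB G u u = 0)
    (hud : gB G u d = 0) (hfix : OrthTensor.sie (gB G) u d (x i) = 0) :
    slot y i (OrthTensor.sie (gB G) u d z) ∈ par M hx := by
  obtain ⟨g, hg, hge, -⟩ := h.good_sie hu hud
  obtain ⟨w, hw, hwe, -⟩ := good_site hg i
  obtain ⟨e, rfl⟩ := L.exists_oq h.two (h.iso w hw)
  have hact : ∀ p, e.1 (pureVec p) = pureVec (Function.update p i (p i + OrthTensor.sie (gB G) u d (p i))) :=
    fun p => by rw [← oqToGL_mulVec, hwe, site_mulVec, hge, add_mulVec, one_mulVec, sieM_mulVec]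
  have := sub_mem (map_mem_par hy (show e ∈ M.comap (oqToGL Qv) from hw)
    (by rw [hact, hfix, add_zero, Function.update_eq_self])) hy
  convert this using 1
  rw [slot_apply y i z, hact, Function.update_self, Function.update_idem, ← slot_apply, ← slot_apply,
    map_add, add_sub_cancel_left]

omit hl hv hab hroot in
/-- A site meeting the centre is arbitrary. -/
lemma raise {x : Fin t → Fin k → F} {hx : Qv (pureVec x) = 0} {y : Fin t → Fin k → F}
    (hy : pureVec y ∈ par M hx) (i : Fin t) (hxx : gB G (x i) (x i) = 0)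
    (hi : gB G (x i) (y i) ≠ 0) (z : Fin k → F) :
    pureVec (Function.update y i z) ∈ par M hx := by
  let S : Submodule F (Fin k → F) := (par M hx).comap (slot y i)
  have hyS : y i ∈ S := by simpa [S, slot_apply] using hy
  have hmove : ∀ w d, w ∈ S → gB G (x i) d = 0 → OrthTensor.sie (gB G) (x i) d w ∈ S := fun w d hw hd =>
    h.slot_moved L hw hxx hd (by simp [OrthTensor.sie_apply, hxx, h.hg.symm d (x i), hd])
  have hx0 : x i ≠ 0 := fun e => hi (by simp [e])
  obtain ⟨x', hx'⟩ := h.hg.exists_hyp hxx hx0
  obtain ⟨p, p', hp, hpp', hxp', -, -⟩ := h.hg.exists_second h.finrank_five hx'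
  obtain ⟨d, hd, hdd⟩ := h.hg.aniso_of_pair (S := LinearMap.ker (gB G (x i))) (x := p) (y := p')
    (LinearMap.mem_ker.2 hp.2.2.2.2) (LinearMap.mem_ker.2 hxp') (by rw [hpp'.2.2]; exact one_ne_zero)
  rw [LinearMap.mem_ker] at hd
  have hxS : x i ∈ S := by
    have := add_mem (hmove _ d hyS hd) (hmove _ (-d) hyS (by simp [hd]))
    rw [OrthTensor.sie_apply, OrthTensor.sie_apply] at this
    have e : (gB G (x i) (y i) • d - gB G d (y i) • x i - (gB G d d / 2 * gB G (x i) (y i)) • x i) +
        (gB G (x i) (y i) • (-d) - gB G (-d) (y i) • x i -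
          (gB G (-d) (-d) / 2 * gB G (x i) (y i)) • x i) = (-(gB G d d * gB G (x i) (y i))) • x i := by
      simp only [map_neg, LinearMap.neg_apply, neg_neg]
      have := h.two
      match_scalars <;> field_simp <;> ring
    rw [e] at this
    exact (Submodule.smul_mem_iff S (neg_ne_zero.2 (mul_ne_zero hdd hi))).1 this
  have hker : ∀ w, gB G (x i) w = 0 → w ∈ S := fun w hw => by
    have := hmove _ w hyS hw
    rw [OrthTensor.sie_apply] at this
    have := add_mem (add_mem this (S.smul_mem (gB G w (y i)) hxS))
      (S.smul_mem (gB G w w / 2 * gB G (x i) (y i)) hxS)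
    refine (Submodule.smul_mem_iff S hi).1 ?_
    convert this using 1
    abel
  have : z ∈ S := by
    have := add_mem (hker (z - (gB G (x i) z / gB G (x i) (y i)) • y i) (by simp [hi]))
      (S.smul_mem (gB G (x i) z / gB G (x i) (y i)) hyS)
    rwa [sub_add_cancel] at this
  exact this

omit hl hv hab hroot in
/-- A site orthogonal to the centre but off it may be replaced by the centre. -/
lemma lower {x : Fin t → Fin k → F} {hx : Qv (pureVec x) = 0} {y : Fin t → Fin k → F}
    (hy : pureVec y ∈ par M hx) (i : Fin t) (hxx : gB G (x i) (x i) = 0)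
    (hi : gB G (x i) (y i) = 0) (hni : y i ∉ F ∙ x i) :
    pureVec (Function.update y i (x i)) ∈ par M hx := by
  obtain ⟨d, hd, hdx⟩ := h.hg.exists_pair_sub hni
  have hdx' : gB G (x i) d = 0 := hdx _ (Submodule.mem_span_singleton_self _)
  have := h.slot_moved L (y := y) (i := i) (z := y i) (by simpa [slot_apply] using hy) hxx hdx'
    (by simp [OrthTensor.sie_apply, hxx, h.hg.symm d (x i), hdx'])
  rw [OrthTensor.sie_apply, hi, h.hg.symm d (y i), hd] at this
  simp only [zero_smul, zero_sub, mul_zero, sub_zero, one_smul, map_neg] at this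
  simpa [slot_apply] using this

omit hl hv hab hroot in
/-- Sites meeting the centre are arbitrary. -/
lemma raise_all {x : Fin t → Fin k → F} {hx : Qv (pureVec x) = 0} {y : Fin t → Fin k → F}
    (hy : pureVec y ∈ par M hx) (U : Finset (Fin t)) (hxx : ∀ i, gB G (x i) (x i) = 0)
    (hU : ∀ i ∈ U, gB G (x i) (y i) ≠ 0) (z : Fin t → Fin k → F) (hz : ∀ i, i ∉ U → z i = y i) :
    pureVec z ∈ par M hx := by
  classical
  induction U using Finset.induction generalizing z with
  | empty => rwa [show z = y from funext fun i => hz i (Finset.notMem_empty i)]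
  | insert j U hj ih =>
    have h1 := ih (fun i hi => hU i (Finset.mem_insert_of_mem hi)) (Function.update z j (y j))
      (fun i hi => by
        by_cases hij : i = j
        · subst hij; simp
        · rw [Function.update_of_ne hij]; exact hz i (by simp [hij, hi]))
    have := h.raise L h1 j (hxx j) (by rw [Function.update_self]; exact hU j (Finset.mem_insert_self j U))
      (z j)
    rwa [Function.update_idem, Function.update_eq_self] at this

/-- **Pure singular vectors are centres.** -/
theorem pure_mem_centres (x : Fin t → Fin k → F) (hx : ∀ i, x i ≠ 0 ∧ gB G (x i) (x i) = 0) :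
    pureVec x ∈ siegelCentres Qv (M.comap (oqToGL Qv)) := by
  classical
  have hxx : ∀ i, gB G (x i) (x i) = 0 := fun i => (hx i).2
  have hQ : Qv (pureVec x) = 0 := L.singular h.two (i := q) (hxx q)
  choose x' hx' using fun i => h.hg.exists_hyp (hxx i) (hx i).1
  have hx'x : ∀ i, gB G (x' i) (x i) = 1 := fun i => by rw [h.hg.symm, (hx' i).2.2]
  have hx'0 : ∀ i, x' i ≠ 0 := fun i e => by simpa [e] using (hx' i).2.2
  choose d d' hd hdd' hxd' hx'd hx'd' using fun i => h.hg.exists_second h.finrank_five (hx' i)
  have hdx : ∀ i, gB G (d i) (x i) = 0 := fun i => by rw [h.hg.symm, (hd i).2.2.2.2]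
  have hd'x : ∀ i, gB G (d' i) (x i) = 0 := fun i => by rw [h.hg.symm, hxd' i]
  have hd'0 : ∀ i, d' i ≠ 0 := fun i e => by simpa [e] using (hdd' i).2.2
  have hd'd : ∀ i, gB G (d' i) (d i) = 1 := fun i => by rw [h.hg.symm, (hdd' i).2.2]
  have move : ∀ (u w y : Fin t → Fin k → F), (∀ i, i ≠ q → u i = w i) →
      (∀ i, i ≠ q → u i ≠ 0 ∧ gB G (u i) (u i) = 0) → Pair₂ (gB G) (u q) (w q) →
      (∃ i, gB G (u i) (x i) = 0) → (∃ i, gB G (w i) (x i) = 0) →
      pureVec y ∈ par M hQ → (∃ i, gB G (w i) (y i) = 0) → (∀ i, gB G (u i) (y i) ≠ 0) →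
      pureVec w ∈ par M hQ := by
    rintro u w y huw hs hq ⟨i, hi⟩ ⟨i', hi'⟩ hy ⟨i'', hi''⟩ hne
    obtain ⟨hw, hp, hm⟩ := h.diff_mem L hl hv hab hroot u w huw hs hq 1
    have := h.step L hy hm (L.singular h.two (i := q) hq.2.2.1) (L.perp hi) (L.perp hi')
    rw [L.perp hi'', zero_smul, zero_sub, ← neg_smul] at this
    exact (Submodule.smul_mem_iff _ (neg_ne_zero.2 (L.ne_zero hne))).1 this
  -- the first parameter
  have h0 : pureVec (Function.update x q (d q)) ∈ par M hQ := fun s => by
    obtain ⟨hw, hp, hm⟩ := h.diff_mem L hl hv hab hroot (Function.update x q (d q)) x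
      (fun i hi => Function.update_of_ne hi _ _)
      (fun i hi => by rw [Function.update_of_ne hi]; exact hx i)
      (by rw [Function.update_self]; exact h.pair_symm (hd q)) s
    exact ⟨hp, hm⟩
  -- the centre at `q`
  have F1 : ∀ z : Fin t → Fin k → F, z q = x q → pureVec z ∈ par M hQ := by
    intro z hz
    have hw := move (Function.update x' q (d' q)) (Function.update x' q (x q)) (Function.update x q (d q))
      (fun i hi => by simp [hi])
      (fun i hi => by rw [Function.update_of_ne hi]; exact ⟨hx'0 i, (hx' i).2.1⟩)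
      (by
        simp only [Function.update_self]
        refine h.pair_symm ⟨(hx q).1, fun hm => ?_, hxx q, (hdd' q).2.1, hxd' q⟩
        obtain ⟨r, hr⟩ := Submodule.mem_span_singleton.1 hm
        have := hd'd q
        rw [← hr] at this
        simp [(hd q).2.2.2.2] at this)
      ⟨q, by simp [hd'x q]⟩ ⟨q, by simp [hxx q]⟩ h0 ⟨q, by simp [(hd q).2.2.2.2]⟩
      (fun i => by
        by_cases hi : i = q
        · subst hi; simp [hd'd]
        · simp [hi, hx'x])
    refine h.raise_all L hw (Finset.univ.erase q) hxx (fun i hi => ?_) z fun i hi => ?_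
    · simp [Finset.ne_of_mem_erase hi, (hx' i).2.2]
    · simp at hi; subst hi; simp [hz]
  have hpair : ∀ i, Pair₂ (gB G) (x' i) (d i) := fun i => ⟨hx'0 i, fun hm => by
    obtain ⟨r, hr⟩ := Submodule.mem_span_singleton.1 hm
    have := hd'd i
    rw [← hr] at this
    simp [h.hg.symm (d' i) (x' i), hx'd' i] at this, (hx' i).2.1, (hd i).2.2.2.1, hx'd i⟩
  -- singular vectors orthogonal to the centre and its partner at another site
  have perpj : ∀ j, j ≠ q → ∀ e, e ≠ 0 → gB G e e = 0 → gB G (x j) e = 0 → gB G (x' j) e = 0 →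
      (∀ z : Fin t → Fin k → F, z j = e → pureVec z ∈ par M hQ) ∧
      ∀ z : Fin t → Fin k → F, z j = x j → pureVec z ∈ par M hQ := by
    intro j hj e he hee hxe hx'e
    have hex : gB G e (x j) = 0 := by rw [h.hg.symm, hxe]
    have heS : e ∉ Submodule.span F {x j, x' j} := fun hm => by
      obtain ⟨r, r', hr⟩ := Submodule.mem_span_pair.1 hm
      have e1 := congrArg (gB G (x j)) hr
      have e2 := congrArg (gB G (x' j)) hr
      simp [hxx j, (hx' j).2.2, hxe] at e1
      simp [(hx' j).2.1, hx'x j, hx'e] at e2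
      exact he (by rw [← hr, e1, e2, zero_smul, zero_smul, add_zero])
    obtain ⟨e', he', he'S⟩ := h.hg.exists_hyp_perp hee heS (fun p hp => by
      obtain ⟨r, r', rfl⟩ := Submodule.mem_span_pair.1 hp
      simp [hxe, hx'e])
    have hxe' : gB G (x j) e' = 0 := he'S _ (Submodule.subset_span (by simp))
    have he'x : gB G e' (x j) = 0 := by rw [h.hg.symm, hxe']
    have he'0 : e' ≠ 0 := fun e0 => by simpa [e0] using he'.2.2
    -- the centre at `q` gives the partner of `e`
    set w₂ := Function.update (Function.update x' q (d q)) j e' with hw₂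
    have hw2 : pureVec w₂ ∈ par M hQ := move (Function.update (Function.update x' q (x' q)) j e') w₂
      (Function.update x j e)
      (fun i hi => by by_cases hij : i = j <;> simp [hw₂, hi, hij])
      (fun i hi => by
        by_cases hij : i = j
        · subst hij; simp [he'0, he'.2.1]
        · simp [hij, hi, hx'0, (hx' i).2.1])
      (by simpa [hw₂, hj.symm] using hpair q)
      ⟨j, by simp [he'x]⟩ ⟨j, by simp [hw₂, he'x]⟩ (F1 _ (by simp [hj.symm]))
      ⟨q, by simp [hw₂, hj.symm, hdx]⟩
      (fun i => by
        by_cases hij : i = j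
        · subst hij; simp [h.hg.symm e' e, he'.2.2]
        · by_cases hi : i = q
          · subst hi; simp [hij, hx'x]
          · simp [hij, hi, hx'x])
    have hF2 : ∀ z : Fin t → Fin k → F, z q = d q → z j = e' → pureVec z ∈ par M hQ := fun z hz hz' => by
      refine h.raise_all L hw2 ((Finset.univ.erase q).erase j) hxx (fun i hi => ?_) z fun i hi => ?_
      · simp only [Finset.mem_erase] at hi
        simp [hw₂, hi.1, hi.2.1, (hx' i).2.2]
      · simp only [Finset.mem_erase, Finset.mem_univ, and_true, not_and_or, not_not] at hi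
        rcases hi with rfl | rfl
        · simp [hw₂, hz']
        · simp [hw₂, hj.symm, hz]
    set w₃ := Function.update x' j e with hw₃
    have hw3 : pureVec w₃ ∈ par M hQ := move
      (Function.update (Function.update x' q (d' q)) j e) w₃
      (Function.update (Function.update x q (d q)) j e')
      (fun i hi => by by_cases hij : i = j <;> simp [hw₃, hi, hij])
      (fun i hi => by
        by_cases hij : i = j
        · subst hij; simp [he, hee]
        · simp [hij, hi, hx'0, (hx' i).2.1])
      (by
        simp only [hw₃, Function.update_of_ne hj.symm, Function.update_self]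
        refine h.pair_symm ⟨hx'0 q, fun hm => ?_, (hx' q).2.1, (hdd' q).2.1, hx'd' q⟩
        obtain ⟨r, hr⟩ := Submodule.mem_span_singleton.1 hm
        have := hd'd q
        rw [← hr] at this
        simp [hx'd q] at this)
      ⟨j, by simp [hex]⟩ ⟨j, by simp [hw₃, hex]⟩ (hF2 _ (by simp [hj.symm]) (by simp))
      ⟨q, by simp [hw₃, hj.symm, hx'd q]⟩
      (fun i => by
        by_cases hij : i = j
        · subst hij; simp [he'.2.2]
        · by_cases hi : i = q
          · subst hi; simp [hij, hd'd]
          · simp [hij, hi, hx'x])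
    have hF3 : ∀ z : Fin t → Fin k → F, z j = e → pureVec z ∈ par M hQ := fun z hz => by
      refine h.raise_all L hw3 (Finset.univ.erase j) hxx (fun i hi => ?_) z fun i hi => ?_
      · simp [hw₃, Finset.ne_of_mem_erase hi, (hx' i).2.2]
      · simp at hi; subst hi; simp [hw₃, hz]
    refine ⟨hF3, fun z hz => ?_⟩
    have hne : e ∉ F ∙ x j := fun hm => heS (Submodule.span_mono (by simp) hm)
    have := h.lower L (hF3 (Function.update z j e) (by simp)) j (hxx j) (by simp [hxe]) (by simpa using hne)
    rwa [Function.update_idem, ← hz, Function.update_eq_self] at this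
  have perpq : ∀ e, e ≠ 0 → gB G e e = 0 → gB G (x q) e = 0 → gB G (x' q) e = 0 →
      ∀ z : Fin t → Fin k → F, z q = e → pureVec z ∈ par M hQ := by
    intro e he hee hxe hx'e z hz
    haveI : Nontrivial (Fin t) := Fin.nontrivial_iff_two_le.2 h.tpos
    obtain ⟨j, hj⟩ := exists_ne q
    have hA := (perpj j hj (d j) (fun e0 => by simpa [e0] using (hdd' j).2.2) (hd j).2.2.2.1
      (hd j).2.2.2.2 (hx'd j)).2
    set w₄ := Function.update x' q e with hw₄
    have hw4 : pureVec w₄ ∈ par M hQ := move (Function.update x' q (x q)) w₄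
      (Function.update (Function.update x q (x' q)) j (x j))
      (fun i hi => by simp [hw₄, hi])
      (fun i hi => by simp [hi, hx'0, (hx' i).2.1])
      (by
        simp only [hw₄, Function.update_self]
        refine ⟨(hx q).1, fun hm => ?_, hxx q, hee, hxe⟩
        obtain ⟨r, hr⟩ := Submodule.mem_span_singleton.1 hm
        have := hx'e
        rw [← hr] at this
        simp [hx'x q] at this
        exact he (by rw [← hr, this, zero_smul]))
      ⟨q, by simp [hxx q]⟩ ⟨q, by simp [hw₄, h.hg.symm e (x q), hxe]⟩ (hA _ (by simp))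
      ⟨q, by simp [hw₄, hj.symm, h.hg.symm e (x' q), hx'e]⟩
      (fun i => by
        by_cases hi : i = q
        · subst hi; simp [hj.symm, (hx' i).2.2]
        · by_cases hij : i = j
          · subst hij; simp [hi, hx'x]
          · simp [hij, hi, hx'x])
    refine h.raise_all L hw4 (Finset.univ.erase q) hxx (fun i hi => ?_) z fun i hi => ?_
    · simp [hw₄, Finset.ne_of_mem_erase hi, (hx' i).2.2]
    · simp at hi; subst hi; simp [hw₄, hz]
  -- every site orthogonal to the centre
  have site_perp : ∀ i e, gB G (x i) e = 0 → ∀ z : Fin t → Fin k → F, z i = e →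
      pureVec z ∈ par M hQ := by
    intro i e hxe z hz
    let T : Submodule F (Fin k → F) :=
      ⨅ z : Fin t → Fin k → F, (par M hQ).comap (slot z i)
    have hmem : ∀ w, (∀ z : Fin t → Fin k → F, z i = w → pureVec z ∈ par M hQ) → w ∈ T := by
      intro w hw
      simp only [T, Submodule.mem_iInf, Submodule.mem_comap, slot_apply]
      exact fun z => hw _ (Function.update_self i w z)
    have hxT : x i ∈ T := hmem _ (by
      by_cases hi : i = q
      · subst hi; exact F1
      · exact (perpj i hi (d i) (fun e0 => by simpa [e0] using (hdd' i).2.2) (hd i).2.2.2.1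
          (hd i).2.2.2.2 (hx'd i)).2)
    let S := LinearMap.ker (gB G (x i)) ⊓ LinearMap.ker (gB G (x' i))
    have hS : S ≤ T := h.hg.le_of_iso (hdd' i) ⟨LinearMap.mem_ker.2 (hd i).2.2.2.2, LinearMap.mem_ker.2 (hx'd i)⟩
      ⟨LinearMap.mem_ker.2 (hxd' i), LinearMap.mem_ker.2 (hx'd' i)⟩ fun w hw hww => by
        rcases eq_or_ne w 0 with rfl | hw0
        · exact T.zero_mem
        refine hmem w ?_
        by_cases hi : i = q
        · subst hi; exact perpq w hw0 hww (LinearMap.mem_ker.1 hw.1) (LinearMap.mem_ker.1 hw.2)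
        · exact (perpj i hi w hw0 hww (LinearMap.mem_ker.1 hw.1) (LinearMap.mem_ker.1 hw.2)).1
    have he : e ∈ T := by
      have h1 : e - gB G (x' i) e • x i ∈ S :=
        ⟨LinearMap.mem_ker.2 (by simp [hxe, hxx i]), LinearMap.mem_ker.2 (by simp [hx'x i])⟩
      have := add_mem (hS h1) (T.smul_mem (gB G (x' i) e) hxT)
      rwa [sub_add_cancel] at this
    simp only [T, Submodule.mem_iInf, Submodule.mem_comap, slot_apply] at he
    have := he z
    rwa [← hz, Function.update_eq_self] at this
  -- every parameter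
  have hpure : ∀ y : Fin t → Fin k → F,
      pureVec y - (∏ i, gB G (x i) (y i)) • pureVec x' ∈ par M hQ := by
    intro y
    have key : ∀ U : Finset (Fin t),
        pureVec y - pureVec (fun i => if i ∈ U then gB G (x i) (y i) • x' i else y i) ∈ par M hQ := by
      intro U
      induction U using Finset.induction with
      | empty => simp
      | insert j U hj ih =>
        set z := fun i => if i ∈ U then gB G (x i) (y i) • x' i else y i with hzdef
        have e : (fun i => if i ∈ insert j U then gB G (x i) (y i) • x' i else y i) =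
            Function.update z j (gB G (x j) (y j) • x' j) := by
          funext i
          by_cases hi : i = j
          · subst hi; simp
          · simp [hzdef, hi]
        have e' : z = Function.update z j (y j) := by
          funext i
          by_cases hi : i = j
          · subst hi; simp [hzdef, hj]
          · simp [hi]
        have := add_mem ih (site_perp j (y j - gB G (x j) (y j) • x' j) (by simp [(hx' j).2.2])
          (Function.update z j (y j - gB G (x j) (y j) • x' j)) (by simp))
        convert this using 1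
        rw [e, ← slot_apply, ← slot_apply, map_sub]
        conv_rhs => arg 1; arg 2; rw [e', ← slot_apply]
        abel
    convert key Finset.univ using 2
    funext z
    simp [pureVec, Finset.prod_mul_distrib]
  refine ⟨hQ, fun X hX => ?_⟩
  have hmem : X ∈ par M hQ := by
    let Φ : ((Fin t → Fin k) → F) →ₗ[F] ((Fin t → Fin k) → F) :=
      LinearMap.id - ((c₀⁻¹ • Qv.polarBilin (pureVec x))).smulRight (pureVec x')
    have hΦp : ∀ y, Φ (pureVec y) ∈ par M hQ := fun y => by
      have := hpure y
      simpa [Φ, L.pure, ← mul_assoc, inv_mul_cancel₀ L.ne] using this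
    have hΦ : Φ X ∈ par M hQ := by
      rw [pi_eq_sum_univ' X, map_sum]
      refine sum_mem fun z _ => ?_
      rw [map_smul]
      refine Submodule.smul_mem _ _ ?_
      rw [single_eq_pureVec]
      exact hΦp _
    simpa [Φ, hX] using hΦ
  obtain ⟨hp, hm⟩ := hmem 1
  convert hm using 1
  exact siegel_congr Qv _ _ _ _ rfl (one_smul F X).symm

omit L hl hv hab hroot in
lemma five_le_card : 5 ≤ finrank F ((Fin t → Fin k) → F) := by
  rw [Module.finrank_fintype_fun_eq_card, Fintype.card_fun, Fintype.card_fin, Fintype.card_fin]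
  exact le_trans h.five (Nat.le_self_pow (by have := h.tpos; omega) k)

omit hl hv hab hroot in
/-- **A member with one long root site gives the commutator subgroup.** -/
theorem commutator_le (hB : BNondeg Qv) (hS : Single G M) :
    commutator (OQ Qv) ≤ M.comap (oqToGL Qv) := by
  obtain ⟨q, l, v, a₀, b₀, hl, hv, hab, hroot⟩ := h.long_root hS
  obtain ⟨x, x', hx⟩ := h.hg.exists_hyp_any h.finrank_five
  have hx0 : x ≠ 0 := fun e => by simpa [e] using hx.2.2
  have hx'0 : x' ≠ 0 := fun e => by simpa [e] using hx.2.2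
  exact commutator_le_of_centre_pair hB h.five_le_card
    (h.pure_mem_centres L hl hv hab hroot (fun _ => x) fun _ => ⟨hx0, hx.1⟩)
    (h.pure_mem_centres L hl hv hab hroot (fun _ => x') fun _ => ⟨hx'0, hx.2.1⟩)
    (L.ne_zero fun _ => by rw [h.hg.symm, hx.2.2]; exact one_ne_zero)

end Sys

end Cfsg.Agent.MaxSub.OrthWreathBig
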