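import Cfsg.Agent.MaxSub.TensorPowSp.Enlarge
import Cfsg.Agent.MaxSub.OrthTensor.Space

/-!
The setting of an orthogonal tensor power with factors of dimension at least five: movers at one site.
-/

set_option autoImplicit false
set_option linter.unusedSectionVars false
set_option linter.unusedSimpArgs false

namespace Cfsg.Agent.MaxSub.OrthWreathBig

open Matrix Module Cfsg.Agent.NotMax Cfsg.Agent.GeoClasses Cfsg.Agent.MaxSub.TensorPowSp
open Cfsg.Agent.MaxSub.OrthTensor (Sym Hyp Pair₂)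

variable {F : Type*} [Field F] {k t : ℕ}

/-- The bilinear form of a Gram matrix. -/
noncomputable def gB (G : Matrix (Fin k) (Fin k) F) :
    (Fin k → F) →ₗ[F] (Fin k → F) →ₗ[F] F :=
  LinearMap.mk₂ F (fG G) (fG_add_left G) (fG_smul_left G) (fG_add_right G) (fG_smul_right G)

/-- A rank one map. -/
def cr (G : Matrix (Fin k) (Fin k) F) (a b : Fin k → F) : Matrix (Fin k) (Fin k) F :=
  vecMulVec a (b ᵥ* G)

/-- A skew map of two vectors. -/
def nn (G : Matrix (Fin k) (Fin k) F) (a b : Fin k → F) : Matrix (Fin k) (Fin k) F :=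
  cr G a b - cr G b a

/-- The displacement of an Eichler transformation. -/
noncomputable def sieM (G : Matrix (Fin k) (Fin k) F) (u y : Fin k → F) :
    Matrix (Fin k) (Fin k) F :=
  cr G y u - cr G u y - (gB G y y / 2) • cr G u u

variable {G : Matrix (Fin k) (Fin k) F}

lemma gB_apply (a b : Fin k → F) : gB G a b = fG G a b := rfl

lemma E_eq (a : Fin k → F) : E G a = cr G a a := rfl

lemma cr_mul (a b c d : Fin k → F) : cr G a b * cr G c d = gB G b c • cr G a d := vec_mul_vec G a b c d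

lemma cr_mulVec (a b x : Fin k → F) : cr G a b *ᵥ x = gB G b x • a := by
  ext i; simp [cr, gB_apply, fG, Matrix.vecMulVec_mulVec, mul_comm]

lemma cr_add_left (a a' b : Fin k → F) : cr G (a + a') b = cr G a b + cr G a' b := by
  simp [cr, add_vecMulVec]

lemma cr_add_right (a b b' : Fin k → F) : cr G a (b + b') = cr G a b + cr G a b' := by
  simp [cr, add_vecMul, vecMulVec_add]

lemma cr_smul_left (s : F) (a b : Fin k → F) : cr G (s • a) b = s • cr G a b := by
  simp [cr, smul_vecMulVec]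

lemma cr_smul_right (s : F) (a b : Fin k → F) : cr G a (s • b) = s • cr G a b := by
  simp [cr, smul_vecMul, vecMulVec_smul]

@[simp] lemma cr_zero_left (b : Fin k → F) : cr G 0 b = 0 := by simp [cr]

@[simp] lemma cr_zero_right (a : Fin k → F) : cr G a 0 = 0 := by simp [cr]

lemma sieM_mulVec (u y x : Fin k → F) : sieM G u y *ᵥ x = OrthTensor.sie (gB G) u y x := by
  rw [OrthTensor.sie_apply, sieM, sub_mulVec, sub_mulVec, smul_mulVec, cr_mulVec, cr_mulVec,
    cr_mulVec, smul_smul]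

lemma nn_smul_right (s : F) (a b : Fin k → F) : nn G a (s • b) = s • nn G a b := by
  rw [nn, nn, cr_smul_left, cr_smul_right, smul_sub]

lemma nn_swap (a b : Fin k → F) : nn G b a = -nn G a b := by rw [nn, nn, neg_sub]

/-- The hypotheses on the group. -/
structure Sys (G : Matrix (Fin k) (Fin k) F) (M : Subgroup (GL (Fin t → Fin k) F)) : Prop where
  symG : Gᵀ = G
  det : IsUnit G.det
  two : (2 : F) ≠ 0
  five : 5 ≤ k
  tpos : 2 ≤ t
  sieMem : ∀ (j : Fin t) (u y : Fin k → F), gB G u u = 0 → gB G u y = 0 →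
    InM M (1 + site j (sieM G u y))
  perm3 : ∀ π : Equiv.Perm (Fin t), π.IsThreeCycle → glFactorPerm k π ∈ M
  iso : ∀ g ∈ M, ((g : Matrix (Fin t → Fin k) (Fin t → Fin k) F))ᵀ * gV G t *
    (g : Matrix (Fin t → Fin k) (Fin t → Fin k) F) = gV G t

/-- The bilinear compressions as a bilinear map. -/
noncomputable def bB (G : Matrix (Fin k) (Fin k) F) (m : Fin t)
    (B : Matrix (Fin t → Fin k) (Fin t → Fin k) F) :
    (Fin k → F) →ₗ[F] (Fin k → F) →ₗ[F] Matrix (Rest k m) (Rest k m) F :=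
  LinearMap.mk₂ F (fun a b => bcomp G m a b B) (fun a a' b => bcomp_add_left m a a' b B)
    (fun c a b => bcomp_smul_left m c a b B) (fun a b b' => bcomp_add_right m a b b' B)
    (fun c a b => bcomp_smul_right m c a b B)

lemma bB_apply (m : Fin t) (a b : Fin k → F) (B : Matrix (Fin t → Fin k) (Fin t → Fin k) F) :
    bB G m B a b = bcomp G m a b B := rfl

lemma site_cr_sandwich (m : Fin t) (a b c d : Fin k → F)
    (B : Matrix (Fin t → Fin k) (Fin t → Fin k) F) :
    site m (cr G a b) * B * site m (cr G c d) = site m (cr G a d) * emb m (bcomp G m b c B) := by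
  apply (blk m).injective
  rw [blk_site_mul_emb, map_mul, map_mul, blk_site, blk_site]
  funext p s
  simp only [Matrix.mul_apply, Matrix.map_apply, cr, Matrix.vecMulVec_apply, bcomp, Finset.sum_mul,
    Finset.smul_sum]
  rw [Finset.sum_comm]
  refine Finset.sum_congr rfl fun q _ => Finset.sum_congr rfl fun r _ => ?_
  rw [mul_assoc, ← Algebra.commutes (R := F) (c r * (d ᵥ* G) s), ← mul_assoc, ← map_mul, smul_smul,
    ← Algebra.smul_def]
  congr 1; ring

lemma bcomp_site_emb (m : Fin t) (a b : Fin k → F) (X : Matrix (Fin k) (Fin k) F)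
    (Y : Matrix (Rest k m) (Rest k m) F) :
    bcomp G m a b (site m X * emb m Y) = gB G a (X *ᵥ b) • Y := by
  simp only [bcomp, blk_site_mul_emb, gB_apply, fG, dotProduct, Matrix.mulVec, Finset.mul_sum,
    Finset.sum_smul, smul_smul]
  exact Finset.sum_congr rfl fun q _ => Finset.sum_congr rfl fun r _ => by congr 1; ring

variable {M : Subgroup (GL (Fin t → Fin k) F)}

namespace Sys

variable (h : Sys G M)
include h

lemma nz : NeZero k := ⟨by have := h.five; omega⟩

lemma hg : Sym (gB G) where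
  two := h.two
  symm x y := by
    rw [gB_apply, gB_apply, fG, fG, ← dotProduct_mulVec, dotProduct_comm x (G *ᵥ y),
      ← vecMul_transpose, h.symG]
  nd x hx := by
    have : x ᵥ* G = 0 := funext fun i => by
      have := hx (Pi.single i 1)
      rwa [gB_apply, fG, dotProduct_single, mul_one] at this
    exact Matrix.vecMul_injective_of_isUnit ((Matrix.isUnit_iff_isUnit_det _).2 h.det)
      (show x ᵥ* G = 0 ᵥ* G by rw [this, zero_vecMul])

lemma finrank_five : 5 ≤ finrank F (Fin k → F) := by rw [finrank_fin_fun]; exact h.five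

lemma cr_transpose_mul (a b : Fin k → F) : (cr G a b)ᵀ * G = G * cr G b a := by
  rw [cr, cr, transpose_vecMulVec, vecMulVec_mul, mul_vecMulVec, ← vecMul_transpose, h.symG]

lemma cr_ne_zero {a b : Fin k → F} (ha : a ≠ 0) (hb : b ≠ 0) : cr G a b ≠ 0 := fun e => by
  obtain ⟨u, hu, -⟩ := h.hg.exists_pair_sub (S := ⊥) (y := b) (by simpa using hb)
  have := congrArg (fun X => X *ᵥ u) e
  simp only [cr_mulVec, hu, one_smul, zero_mulVec] at this
  exact ha this

lemma E_ne_zero {a : Fin k → F} (ha : a ≠ 0) : E G a ≠ 0 := h.cr_ne_zero ha ha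

/-- Conjugates of rank one maps by isometries. -/
lemma conj_cr {g : GL (Fin k) F}
    (hg : ((g : Matrix (Fin k) (Fin k) F))ᵀ * G * (g : Matrix (Fin k) (Fin k) F) = G)
    (a b : Fin k → F) :
    (g : Matrix (Fin k) (Fin k) F) * cr G a b * ((g⁻¹ : GL (Fin k) F) : Matrix (Fin k) (Fin k) F) =
      cr G ((g : Matrix (Fin k) (Fin k) F) *ᵥ a) ((g : Matrix (Fin k) (Fin k) F) *ᵥ b) := by
  have e : G * ((g⁻¹ : GL (Fin k) F) : Matrix (Fin k) (Fin k) F) =
      ((g : Matrix (Fin k) (Fin k) F))ᵀ * G := by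
    conv_lhs => arg 1; rw [← hg]
    rw [mul_assoc, Units.mul_inv, mul_one]
  rw [cr, cr, mul_vecMulVec, vecMulVec_mul, vecMul_vecMul, e, ← vecMul_vecMul, vecMul_transpose]

lemma conj_nn {g : GL (Fin k) F}
    (hg : ((g : Matrix (Fin k) (Fin k) F))ᵀ * G * (g : Matrix (Fin k) (Fin k) F) = G)
    (a b : Fin k → F) :
    (g : Matrix (Fin k) (Fin k) F) * nn G a b * ((g⁻¹ : GL (Fin k) F) : Matrix (Fin k) (Fin k) F) =
      nn G ((g : Matrix (Fin k) (Fin k) F) *ᵥ a) ((g : Matrix (Fin k) (Fin k) F) *ᵥ b) := by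
  rw [nn, mul_sub, sub_mul, h.conj_cr hg, h.conj_cr hg, nn]

lemma sieM_zero (u : Fin k → F) : sieM G u 0 = 0 := by simp [sieM]

lemma sieM_mul {u y y' : Fin k → F} (hu : gB G u u = 0) (hy : gB G u y = 0) (hy' : gB G u y' = 0) :
    (1 + sieM G u y) * (1 + sieM G u y') = 1 + sieM G u (y + y') := by
  have hyu : gB G y u = 0 := by rw [h.hg.symm, hy]
  simp only [sieM, mul_add, add_mul, mul_sub, sub_mul, mul_one, one_mul, smul_mul_assoc, mul_smul_comm,
    cr_mul, hu, hy, hy', hyu, zero_smul, smul_zero, cr_add_left, cr_add_right, map_add,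
    LinearMap.add_apply, h.hg.symm y' y]
  have := h.two
  match_scalars <;> field_simp <;> ring

lemma sieM_transpose (u y : Fin k → F) : (sieM G u y)ᵀ * G = G * sieM G u (-y) := by
  simp only [sieM, transpose_sub, transpose_smul, sub_mul, smul_mul_assoc, h.cr_transpose_mul, mul_sub,
    mul_smul_comm, map_neg, LinearMap.neg_apply, neg_neg]
  rw [show cr G (-y) u = (-1 : F) • cr G y u by rw [← cr_smul_left, neg_one_smul],
    show cr G u (-y) = (-1 : F) • cr G u y by rw [← cr_smul_right, neg_one_smul]]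
  simp only [mul_smul_comm]
  module

lemma good_sie {u y : Fin k → F} (hu : gB G u u = 0) (hy : gB G u y = 0) :
    ∃ g : GL (Fin k) F, Good G M g ∧ (g : Matrix (Fin k) (Fin k) F) = 1 + sieM G u y ∧
      ((g⁻¹ : GL (Fin k) F) : Matrix (Fin k) (Fin k) F) = 1 + sieM G u (-y) := by
  have hn : gB G u (-y) = 0 := by rw [map_neg, hy, neg_zero]
  have h1 := h.sieM_mul hu hy hn
  have h2 := h.sieM_mul hu hn hy
  rw [add_neg_cancel, h.sieM_zero, add_zero] at h1
  rw [neg_add_cancel, h.sieM_zero, add_zero] at h2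
  refine ⟨⟨1 + sieM G u y, 1 + sieM G u (-y), h1, h2⟩, ⟨?_, fun l => ?_⟩, rfl, rfl⟩
  · show (1 + sieM G u y)ᵀ * G * (1 + sieM G u y) = G
    rw [transpose_add, transpose_one, add_mul, one_mul, h.sieM_transpose]
    conv_lhs => arg 1; arg 1; rw [← mul_one G]
    rw [← mul_add, mul_assoc, h2, mul_one]
  · obtain ⟨x, hx, hxe⟩ := h.sieMem l u y hu hy
    convert hx using 1
    refine Units.ext ?_
    rw [hxe, ← site_one (F := F) (k := k) l, ← site_add, site]
    show pureMat _ = _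
    congr 1
    funext i
    by_cases hi : i = l
    · subst hi; simp
    · simp [hi]

variable [Finite F]

/-- A singular vector in `x^⊥` meeting two given ones. -/
lemma mid {x b c : Fin k → F} (hb : b ∉ F ∙ x) (hc : c ∉ F ∙ x) (hbb : gB G b b = 0)
    (hcc : gB G c c = 0) (hxb : gB G x b = 0) (hxc : gB G x c = 0) :
    ∃ u, gB G u u = 0 ∧ gB G x u = 0 ∧ gB G u b ≠ 0 ∧ gB G u c ≠ 0 := by
  classical
  set κ := gB G b c with hκ
  by_cases hk0 : κ = 0
  · have hp : ∀ {b}, gB G x b = 0 → ∀ z ∈ F ∙ x, gB G z b = 0 := fun hb z hz => by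
      obtain ⟨s, rfl⟩ := Submodule.mem_span_singleton.1 hz
      simp [hb]
    obtain ⟨b', hb', hb'x⟩ := h.hg.exists_hyp_perp hbb hb (hp hxb)
    obtain ⟨c', hc', hc'x⟩ := h.hg.exists_hyp_perp hcc hc (hp hxc)
    have xb : gB G x b' = 0 := hb'x x (Submodule.mem_span_singleton_self x)
    have xc : gB G x c' = 0 := hc'x x (Submodule.mem_span_singleton_self x)
    by_cases h1 : gB G b' c = 0
    swap
    · exact ⟨b', hb'.2.1, xb, by rw [h.hg.symm, hb'.2.2]; exact one_ne_zero, h1⟩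
    by_cases h2 : gB G c' b = 0
    swap
    · exact ⟨c', hc'.2.1, xc, h2, by rw [h.hg.symm, hc'.2.2]; exact one_ne_zero⟩
    refine ⟨b' + c' - gB G b' c' • b, ?_, ?_, ?_, ?_⟩
    · simp [hb'.2.1, hc'.2.1, hbb, h2, h.hg.symm b c', h.hg.symm b' b, hb'.2.2, h.hg.symm c' b']
    · simp [xb, xc, hxb]
    · simp [h.hg.symm b' b, hb'.2.2, h2, hbb]
    · simp [h1, h.hg.symm c' c, hc'.2.2, ← hκ, hk0]
  · obtain ⟨y, hy, hyp⟩ := Sym.exists_perp_avoid (g := gB G) ![x, b, c] (F ∙ x) (by
      have : finrank F (F ∙ x) ≤ 1 := by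
        simpa using finrank_span_le_card (R := F) ({x} : Set (Fin k → F))
      have := h.finrank_five
      omega)
    have yx : gB G x y = 0 := hyp 0
    have yb : gB G b y = 0 := hyp 1
    have yc : gB G c y = 0 := hyp 2
    have hyS : y ∉ Submodule.span F {x, b, c} := fun hm => by
      obtain ⟨α, w, hw, rfl⟩ := Submodule.mem_span_insert.1 hm
      obtain ⟨β, γ, rfl⟩ := Submodule.mem_span_pair.1 hw
      simp [h.hg.symm b x, hxb, hbb, ← hκ] at yb
      simp [h.hg.symm c x, hxc, hcc, h.hg.symm c b, ← hκ] at yc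
      rw [yb.resolve_right hk0, yc.resolve_right hk0] at hy
      exact hy (Submodule.mem_span_singleton.2 ⟨α, by simp⟩)
    obtain ⟨z, hz, hzS⟩ := h.hg.exists_pair_sub hyS
    obtain ⟨e, he, hee⟩ := h.hg.aniso_of_pair
      (S := LinearMap.ker (LinearMap.pi fun i => gB G (![x, b, c] i))) (x := y) (y := z)
      (LinearMap.mem_ker.2 (funext fun i => hyp i))
      (LinearMap.mem_ker.2 (funext fun i => hzS _ (Submodule.subset_span (by fin_cases i <;> simp))))
      (by rw [hz]; exact one_ne_zero)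
    have ex : gB G x e = 0 := congrFun (LinearMap.mem_ker.1 he) 0
    have eb : gB G b e = 0 := congrFun (LinearMap.mem_ker.1 he) 1
    have ec : gB G c e = 0 := congrFun (LinearMap.mem_ker.1 he) 2
    refine ⟨κ⁻¹ • c + e - (gB G e e / 2) • b, ?_, ?_, ?_, ?_⟩
    · simp only [map_add, map_sub, map_smul, LinearMap.add_apply, LinearMap.sub_apply,
        LinearMap.smul_apply, smul_eq_mul, hbb, hcc, h.hg.symm c b, ← hκ, eb, ec, h.hg.symm e b,
        h.hg.symm e c]
      field_simp [h.two, hk0]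
      ring
    · simp [hxb, hxc, ex]
    · simp [hbb, h.hg.symm c b, ← hκ, h.hg.symm e b, eb, hk0]
    · simp [hcc, ← hκ, h.hg.symm e c, ec, hee, hk0, h.two]

/-- A mover of one site fixing `x` sends a line to another one. -/
lemma move {x b c : Fin k → F} (hb : b ∉ F ∙ x) (hc : c ∉ F ∙ x) (hbb : gB G b b = 0)
    (hcc : gB G c c = 0) (hxb : gB G x b = 0) (hxc : gB G x c = 0) :
    ∃ (g : GL (Fin k) F) (μ : F), Good G M g ∧ μ ≠ 0 ∧ (g : Matrix (Fin k) (Fin k) F) *ᵥ x = x ∧
      (g : Matrix (Fin k) (Fin k) F) *ᵥ b = μ • c := by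
  obtain ⟨u, hu, hxu, hub, huc⟩ := h.mid hb hc hbb hcc hxb hxc
  obtain ⟨p, hp⟩ : ∃ p, p = (gB G u b)⁻¹ • b := ⟨_, rfl⟩
  obtain ⟨q, hq⟩ : ∃ q, q = (gB G u c)⁻¹ • c := ⟨_, rfl⟩
  have hup : gB G u p = 1 := by rw [hp, map_smul, smul_eq_mul, inv_mul_cancel₀ hub]
  have huq : gB G u q = 1 := by rw [hq, map_smul, smul_eq_mul, inv_mul_cancel₀ huc]
  have hpp : gB G p p = 0 := by simp [hp, hbb]
  have hqq : gB G q q = 0 := by simp [hq, hcc]
  have hxp : gB G x p = 0 := by simp [hp, hxb]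
  have hxq : gB G x q = 0 := by simp [hq, hxc]
  have huy : gB G u (q - p) = 0 := by rw [map_sub, hup, huq, sub_self]
  obtain ⟨g, hgood, hge, -⟩ := h.good_sie hu huy
  refine ⟨g, gB G u b * (gB G u c)⁻¹, hgood, mul_ne_zero hub (inv_ne_zero huc), ?_, ?_⟩
  · rw [hge, add_mulVec, one_mulVec, sieM_mulVec, OrthTensor.sie_apply]
    simp [h.hg.symm u x, hxu, h.hg.symm q x, hxq, h.hg.symm p x, hxp]
  · have hgp : (g : Matrix (Fin k) (Fin k) F) *ᵥ p = q := by
      rw [hge, add_mulVec, one_mulVec, sieM_mulVec, OrthTensor.sie_apply, hup]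
      simp only [map_sub, LinearMap.sub_apply, hpp, hqq, h.hg.symm q p, sub_zero, one_smul, mul_one]
      have := h.two
      match_scalars <;> field_simp <;> ring
    rw [show b = gB G u b • p by rw [hp, smul_inv_smul₀ hub], mulVec_smul, hgp, hq, smul_smul]
    rw [map_smul, smul_eq_mul, hup, mul_one]

omit [Finite F] in
lemma notMem_zero_span {b : Fin k → F} (hb : b ≠ 0) : b ∉ F ∙ (0 : Fin k → F) := by simpa using hb

lemma move_vec {a b : Fin k → F} (ha : a ≠ 0) (hb : b ≠ 0) (haa : gB G a a = 0)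
    (hbb : gB G b b = 0) :
    ∃ (g : GL (Fin k) F) (μ : F), Good G M g ∧ μ ≠ 0 ∧
      (g : Matrix (Fin k) (Fin k) F) *ᵥ a = μ • b := by
  obtain ⟨g, μ, h1, h2, -, h3⟩ :=
    h.move (h.notMem_zero_span ha) (h.notMem_zero_span hb) haa hbb (by simp) (by simp)
  exact ⟨g, μ, h1, h2, h3⟩

omit [Finite F] in
lemma pair_symm {a b : Fin k → F} (hp : Pair₂ (gB G) a b) : Pair₂ (gB G) b a := by
  obtain ⟨ha, hb, haa, hbb, hab⟩ := hp
  refine ⟨fun e => hb (e ▸ zero_mem _), fun hm => hb ?_, hbb, haa, h.hg.perp_symm hab⟩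
  obtain ⟨s, hs⟩ := Submodule.mem_span_singleton.1 hm
  have hs0 : s ≠ 0 := fun h0 => ha (by rw [← hs, h0, zero_smul])
  exact Submodule.mem_span_singleton.2 ⟨s⁻¹, by rw [← hs, inv_smul_smul₀ hs0]⟩

/-- Relations on orthogonal pairs of singular lines closed under the elementary steps are total. -/
lemma pairs (R : (Fin k → F) → (Fin k → F) → (Fin k → F) → (Fin k → F) → Prop)
    (hsame : ∀ a b c, Pair₂ (gB G) a b → Pair₂ (gB G) a c → R a b a c)
    (hswap : ∀ a b, Pair₂ (gB G) a b → R a b b a)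
    (htrans : ∀ a b c d e f, R a b c d → R c d e f → R a b e f) {a b c d : Fin k → F}
    (hab : Pair₂ (gB G) a b) (hcd : Pair₂ (gB G) c d) : R a b c d := by
  obtain ⟨s, hs, hsc⟩ : ∃ s, Pair₂ (gB G) a s ∧ Pair₂ (gB G) c s ∨
      (Pair₂ (gB G) a c ∧ s = c) := by
    by_cases hac : gB G a c = 0
    · by_cases hm : c ∈ F ∙ a
      · obtain ⟨l, rfl⟩ := Submodule.mem_span_singleton.1 hm
        refine ⟨d, Or.inl ⟨⟨hab.1, fun hd => hcd.2.1 ?_, hab.2.2.1, hcd.2.2.2.1, ?_⟩, hcd⟩⟩
        · have hl : l ≠ 0 := fun h0 => hcd.1 (by rw [h0, zero_smul])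
          rwa [Submodule.span_singleton_smul_eq (IsUnit.mk0 l hl)]
        · have hl : l ≠ 0 := fun h0 => hcd.1 (by rw [h0, zero_smul])
          simpa [hl] using hcd.2.2.2.2
      · exact ⟨c, Or.inr ⟨⟨hab.1, hm, hab.2.2.1, hcd.2.2.1, hac⟩, rfl⟩⟩
    · obtain ⟨s, hs0, hss, has, hcs⟩ := h.hg.exists_iso_perp h.finrank_five a c
      refine ⟨s, Or.inl ⟨⟨hab.1, fun hm => ?_, hab.2.2.1, hss, has⟩,
        ⟨hcd.1, fun hm => ?_, hcd.2.2.1, hss, hcs⟩⟩⟩
      · obtain ⟨l, rfl⟩ := Submodule.mem_span_singleton.1 hm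
        simp [h.hg.symm c a, hac] at hcs
        exact hs0 (by rw [hcs, zero_smul])
      · obtain ⟨l, rfl⟩ := Submodule.mem_span_singleton.1 hm
        simp [hac] at has
        exact hs0 (by rw [has, zero_smul])
  · have hsa := h.pair_symm hs
    have hsc' := h.pair_symm hsc
    exact htrans _ _ _ _ _ _ (hsame _ _ _ hab hs) (htrans _ _ _ _ _ _ (hswap _ _ hs)
      (htrans _ _ _ _ _ _ (hsame _ _ _ hsa hsc') (htrans _ _ _ _ _ _ (hswap _ _ hsc')
        (hsame _ _ _ hsc hcd))))
  rename_i h'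
  obtain ⟨hac, rfl⟩ := h'
  exact htrans _ _ _ _ _ _ (hsame _ _ _ hab hac) (htrans _ _ _ _ _ _ (hswap _ _ hac)
    (hsame _ _ _ (h.pair_symm hac) hcd))

/-- All skew maps of orthogonal singular pairs are conjugate up to scalars. -/
lemma move_nn {a b c d : Fin k → F} (hab : Pair₂ (gB G) a b) (hcd : Pair₂ (gB G) c d) :
    ∃ (g : GL (Fin k) F) (μ : F), Good G M g ∧ μ ≠ 0 ∧
      (g : Matrix (Fin k) (Fin k) F) * nn G a b * ((g⁻¹ : GL (Fin k) F) : Matrix (Fin k) (Fin k) F) =
        μ • nn G c d := by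
  refine h.pairs (fun a b c d => ∃ (g : GL (Fin k) F) (μ : F), Good G M g ∧ μ ≠ 0 ∧
      (g : Matrix (Fin k) (Fin k) F) * nn G a b * ((g⁻¹ : GL (Fin k) F) : Matrix (Fin k) (Fin k) F) =
        μ • nn G c d) ?_ ?_ ?_ hab hcd
  · intro a b c hb hc
    obtain ⟨g, μ, hg, hμ, ga, gb⟩ := h.move hb.2.1 hc.2.1 hb.2.2.2.1 hc.2.2.2.1 hb.2.2.2.2 hc.2.2.2.2
    exact ⟨g, μ, hg, hμ, by rw [h.conj_nn hg.iso, ga, gb, nn_smul_right]⟩
  · intro a b _
    exact ⟨1, -1, Good.one, neg_ne_zero.2 one_ne_zero, by simp [nn_swap a b]⟩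
  · rintro a b c d e f ⟨g, μ, hg, hμ, h1⟩ ⟨g', μ', hg', hμ', h2⟩
    refine ⟨g' * g, μ * μ', hg'.mul hg, mul_ne_zero hμ hμ', ?_⟩
    rw [Units.val_mul, _root_.mul_inv_rev, Units.val_mul]
    simp only [mul_assoc] at h1 h2 ⊢
    rw [← mul_assoc (nn G a b), ← mul_assoc (g : Matrix (Fin k) (Fin k) F), h1, smul_mul_assoc,
      mul_smul_comm, h2, smul_smul]

/-- The skew maps of orthogonal singular pairs generate all matrices. -/
lemma span_nn (A : Subalgebra F (Matrix (Fin k) (Fin k) F))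
    (hA : ∀ a b, Pair₂ (gB G) a b → nn G a b ∈ A) : A = ⊤ := by
  have hE : ∀ a, gB G a a = 0 → cr G a a ∈ A := by
    intro a haa
    rcases eq_or_ne a 0 with rfl | ha
    · simp
    obtain ⟨b, hb⟩ := h.hg.exists_pair₂ h.finrank_five haa ha
    obtain ⟨a', b', -, hbb', -, hab', -⟩ := h.hg.exists_companions hb
    have hp' : Pair₂ (gB G) a b' := ⟨ha, fun hm => by
      obtain ⟨s, rfl⟩ := Submodule.mem_span_singleton.1 hm
      have := hbb'.2.2
      simp [h.hg.symm b a, hb.2.2.2.2] at this, haa, hbb'.2.1, hab'⟩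
    have := neg_mem (mul_mem (hA _ _ hp') (hA _ _ hb))
    convert this using 1
    simp [nn, mul_sub, sub_mul, cr_mul, haa, hb.2.2.2.2, h.hg.symm b' a, hab',
      h.hg.symm b' b, hbb'.2.2]
  have h1 : ∀ a, gB G a a = 0 → ∀ y, cr G a y ∈ A := by
    intro a haa y
    rcases eq_or_ne a 0 with rfl | ha
    · simp
    let T : Submodule F (Fin k → F) :=
      { carrier := {y | cr G a y ∈ A}
        zero_mem' := by simp
        add_mem' := fun {p q} hp hq => by
          show cr G a (p + q) ∈ A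
          rw [cr_add_right]; exact add_mem hp hq
        smul_mem' := fun s p hp => by
          show cr G a (s • p) ∈ A
          rw [cr_smul_right]; exact A.smul_mem hp s }
    have hT : T = ⊤ := h.hg.span_affine h.finrank_five haa ha fun w hw haw => by
      have := A.smul_mem (mul_mem (hE a haa) (hE w hw)) (gB G a w)⁻¹
      rwa [cr_mul, smul_smul, inv_mul_cancel₀ haw, one_smul] at this
    exact (hT ▸ Submodule.mem_top : y ∈ T)
  obtain ⟨v, v', hv⟩ := h.hg.exists_hyp_any h.finrank_five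
  have h2 : ∀ a y, cr G a y ∈ A := by
    intro a y
    let T : Submodule F (Fin k → F) :=
      { carrier := {a | cr G a y ∈ A}
        zero_mem' := by simp
        add_mem' := fun {p q} hp hq => by
          show cr G (p + q) y ∈ A
          rw [cr_add_left]; exact add_mem hp hq
        smul_mem' := fun s p hp => by
          show cr G (s • p) y ∈ A
          rw [cr_smul_left]; exact A.smul_mem hp s }
    exact (h.hg.le_of_iso hv (S := ⊤) (T := T) trivial trivial fun w _ hw => h1 w hw y)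
      (Submodule.mem_top : a ∈ ⊤)
  rw [eq_top_iff]
  rintro X -
  rw [Matrix.matrix_eq_sum_single X]
  refine sum_mem fun p _ => sum_mem fun q _ => ?_
  have := h2 (Pi.single p (X p q)) (Pi.single q 1 ᵥ* G⁻¹)
  rw [cr, vecMul_vecMul, Matrix.nonsing_inv_mul _ h.det, vecMul_one] at this
  convert this using 1
  ext a b
  by_cases ha : p = a <;> by_cases hb : q = b <;> simp [Matrix.vecMulVec_apply, ha, hb, Ne.symm]

/-- Bilinear maps vanishing on orthogonal singular pairs are multiples of the form. -/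
lemma bilin {X : Type*} [AddCommGroup X] [Module F X] (B : (Fin k → F) →ₗ[F] (Fin k → F) →ₗ[F] X)
    (h1 : ∀ a, gB G a a = 0 → B a a = 0) (h2 : ∀ a b, Pair₂ (gB G) a b → B a b = 0) :
    ∃ C, ∀ x y, B x y = gB G x y • C := by
  have hz : ∀ a b, gB G a a = 0 → gB G b b = 0 → gB G a b = 0 → B a b = 0 ∧ B b a = 0 := by
    intro a b haa hbb hab
    rcases eq_or_ne a 0 with rfl | ha
    · simp
    by_cases hm : b ∈ F ∙ a
    · obtain ⟨s, rfl⟩ := Submodule.mem_span_singleton.1 hm
      simp [h1 a haa]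
    · exact ⟨h2 _ _ ⟨ha, hm, haa, hbb, hab⟩, h2 _ _ (h.pair_symm ⟨ha, hm, haa, hbb, hab⟩)⟩
  have hK : ∀ a, gB G a a = 0 → a ≠ 0 → ∃ K K' : X,
      (∀ y, B a y = gB G a y • K) ∧ ∀ y, B y a = gB G y a • K' := by
    intro a haa ha
    obtain ⟨a', ha'⟩ := h.hg.exists_hyp haa ha
    obtain ⟨c, c', hp, hcc', hac', -, -⟩ := h.hg.exists_second h.finrank_five ha'
    refine ⟨B a a', B a' a, fun y => ?_, fun y => ?_⟩
    · have := h.hg.le_of_iso hcc' (S := LinearMap.ker (gB G a)) (T := LinearMap.ker (B a))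
        (LinearMap.mem_ker.2 hp.2.2.2.2) (LinearMap.mem_ker.2 hac')
        (fun w hw hww => LinearMap.mem_ker.2 (hz a w haa hww (LinearMap.mem_ker.1 hw)).1)
        (show y - gB G a y • a' ∈ LinearMap.ker (gB G a) by simp [ha'.2.2])
      simpa [sub_eq_zero] using this
    · have := h.hg.le_of_iso hcc' (S := LinearMap.ker (gB G a)) (T := LinearMap.ker (B.flip a))
        (LinearMap.mem_ker.2 hp.2.2.2.2) (LinearMap.mem_ker.2 hac')
        (fun w hw hww => LinearMap.mem_ker.2 (hz a w haa hww (LinearMap.mem_ker.1 hw)).2)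
        (show y - gB G a y • a' ∈ LinearMap.ker (gB G a) by simp [ha'.2.2])
      simpa [sub_eq_zero, h.hg.symm y a] using this
  obtain ⟨v, v', hv⟩ := h.hg.exists_hyp_any h.finrank_five
  have hv0 : v ≠ 0 := fun e => by simpa [e] using hv.2.2
  obtain ⟨C, C', hC, -⟩ := hK v hv.1 hv0
  refine ⟨C, fun x y => ?_⟩
  have key : ∀ a, gB G a a = 0 → B a y = gB G a y • C := by
    intro a haa
    rcases eq_or_ne a 0 with rfl | ha
    · simp
    obtain ⟨K, K', hKa, -⟩ := hK a haa ha
    obtain ⟨u, hu, -, hua, huv⟩ :=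
      h.mid (h.notMem_zero_span ha) (h.notMem_zero_span hv0) haa hv.1 (by simp) (by simp)
    have hu0 : u ≠ 0 := fun e => by simp [e] at hua
    obtain ⟨L, L', -, hL'⟩ := hK u hu hu0
    rw [h.hg.symm] at hua huv
    have e1 : K = L' := smul_right_injective X hua ((hKa u).symm.trans (hL' a))
    have e2 : C = L' := smul_right_injective X huv ((hC u).symm.trans (hL' v))
    rw [hKa, e1, e2]
  let T : Submodule F (Fin k → F) :=
    LinearMap.ker (B.flip y - ((gB G).flip y).smulRight C)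
  have hT := h.hg.le_of_iso hv (S := ⊤) (T := T) trivial trivial
    (fun w _ hw => by simp [T, key w hw]) (Submodule.mem_top : x ∈ ⊤)
  simpa [T, sub_eq_zero] using hT

omit [Finite F] in
lemma bcomp_dual (m : Fin t) (q r : Fin k) (B : Matrix (Fin t → Fin k) (Fin t → Fin k) F) :
    bcomp G m (Pi.single q 1 ᵥ* G⁻¹) (Pi.single r 1) B = blk m B q r := by
  simp only [bcomp, vecMul_vecMul, Matrix.nonsing_inv_mul _ h.det, vecMul_one]
  simp [Pi.single_apply]

omit [Finite F] in
lemma gB_dual (q r : Fin k) :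
    gB G (Pi.single q 1 ᵥ* G⁻¹) (Pi.single r 1) = if q = r then 1 else 0 := by
  rw [gB_apply, fG, vecMul_vecMul, Matrix.nonsing_inv_mul _ h.det, vecMul_one]
  simp [Pi.single_apply, eq_comm]

omit [Finite F] in
/-- Compressions proportional to the form up to scalars. -/
lemma eq_site_add_emb (m : Fin t) {B : Matrix (Fin t → Fin k) (Fin t → Fin k) F}
    {C : Matrix (Rest k m) (Rest k m) F}
    (hB : ∀ a b, ∃ s : F, bcomp G m a b B = gB G a b • C + s • 1) :
    ∃ X, B = site m X + emb m C := by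
  choose s hs using hB
  refine ⟨Matrix.of fun q r => s (Pi.single q 1 ᵥ* G⁻¹) (Pi.single r 1), (blk m).injective ?_⟩
  ext q r : 1
  rw [map_add, blk_site, blk_emb, Matrix.add_apply, Matrix.map_apply, Matrix.of_apply,
    ← h.bcomp_dual m q r B, hs, h.gB_dual, Matrix.scalar_apply, Matrix.diagonal_apply,
    Algebra.algebraMap_eq_smul_one, add_comm]
  congr 1
  split_ifs <;> simp

omit [Finite F] in
lemma eq_emb (m : Fin t) {B : Matrix (Fin t → Fin k) (Fin t → Fin k) F}
    {C : Matrix (Rest k m) (Rest k m) F}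
    (hB : ∀ a b, bcomp G m a b B = gB G a b • C) : B = emb m C := by
  refine (blk m).injective ?_
  ext q r : 1
  rw [blk_emb, ← h.bcomp_dual m q r B, hB, h.gB_dual, Matrix.scalar_apply, Matrix.diagonal_apply]
  split_ifs <;> simp

end Sys

end Cfsg.Agent.MaxSub.OrthWreathBig
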