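import Cfsg.Agent.MaxSub.OrthWreathBig.Shape

/-!
A shape with the largest set of long root sites is a long root element of the whole tensor power.
-/

set_option autoImplicit false
set_option linter.unusedSectionVars false
set_option linter.unusedSimpArgs false
set_option linter.style.haveILetI false

namespace Cfsg.Agent.MaxSub.OrthWreathBig

open Matrix Module Cfsg.Agent.NotMax Cfsg.Agent.GeoClasses Cfsg.Agent.MaxSub.TensorPowSp
open Cfsg.Agent.MaxSub.OrthTensor (Sym Hyp Pair₂)

variable {F : Type*} [Field F] {k t : ℕ} {G : Matrix (Fin k) (Fin k) F}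
  {M : Subgroup (GL (Fin t → Fin k) F)}

/-- Conjugate up to a scalar inside one site. -/
def Rel (G : Matrix (Fin k) (Fin k) F) (M : Subgroup (GL (Fin t → Fin k) F))
    (X X' : Matrix (Fin k) (Fin k) F) : Prop :=
  ∃ (g : GL (Fin k) F) (μ : F), Good G M g ∧ μ ≠ 0 ∧
    (g : Matrix (Fin k) (Fin k) F) * X * ((g⁻¹ : GL (Fin k) F) : Matrix (Fin k) (Fin k) F) = μ • X'

lemma Rel.refl (X : Matrix (Fin k) (Fin k) F) : Rel G M X X :=
  ⟨1, 1, Good.one, one_ne_zero, by simp⟩

/-- Root elements of pure shape are moved site by site. -/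
lemma root_moved {X X' : Fin t → Matrix (Fin k) (Fin k) F} {l : F} (hl : l ≠ 0)
    (hr : Root F M (l • pureMat X)) (hrel : ∀ i, Rel G M (X i) (X' i)) :
    ∃ l' : F, l' ≠ 0 ∧ Root F M (l' • pureMat X') := by
  choose g μ hg hμ he using hrel
  refine ⟨l * ∏ i, μ i, mul_ne_zero hl (Finset.prod_ne_zero_iff.2 fun i _ => hμ i), ?_⟩
  have := hr.conj (glPure_mem g hg)
  convert this using 1
  show _ = pureMat (fun i => (g i : Matrix (Fin k) (Fin k) F)) * (l • pureMat X) *
    pureMat (fun i => (((g i)⁻¹ : GL (Fin k) F) : Matrix (Fin k) (Fin k) F))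
  rw [mul_smul_comm, smul_mul_assoc, pureMat_mul, pureMat_mul, show (fun i =>
    (g i : Matrix (Fin k) (Fin k) F) * X i * (((g i)⁻¹ : GL (Fin k) F) : Matrix (Fin k) (Fin k) F)) =
    fun i => μ i • X' i from funext he, pureMat_smul, smul_smul]

namespace Sys

variable (h : Sys G M)
include h
variable [Finite F]

lemma rel_E {a b : Fin k → F} (ha : a ≠ 0) (hb : b ≠ 0) (haa : gB G a a = 0) (hbb : gB G b b = 0) :
    Rel G M (cr G a a) (cr G b b) := by
  obtain ⟨g, μ, hg, hμ, hge⟩ := h.move_vec ha hb haa hbb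
  exact ⟨g, μ * μ, hg, mul_ne_zero hμ hμ, by
    rw [h.conj_cr hg.iso, hge, cr_smul_left, cr_smul_right, smul_smul]⟩

lemma rel_N {a b c d : Fin k → F} (hab : Pair₂ (gB G) a b) (hcd : Pair₂ (gB G) c d) :
    Rel G M (nn G a b) (nn G c d) := h.move_nn hab hcd

/-- The partner of a long root site. -/
lemma site_T {X : Matrix (Fin k) (Fin k) F} (hX : IsE G X) :
    ∃ (X' : Matrix (Fin k) (Fin k) F) (v : Fin k → F), Rel G M X X' ∧ X' * X' = 0 ∧ v ≠ 0 ∧
      gB G v v = 0 ∧ gB G v ((X * X') *ᵥ v) = gB G v ((X' * X) *ᵥ v) ∧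
      gB G v ((X * X') *ᵥ v) ≠ 0 := by
  obtain ⟨a, ha, haa, rfl⟩ := hX
  obtain ⟨a', ha'⟩ := h.hg.exists_hyp haa ha
  have ha'0 : a' ≠ 0 := fun e => by simpa [e] using ha'.2.2
  obtain ⟨v, hv, -, hva, hva'⟩ :=
    h.mid (h.notMem_zero_span ha) (h.notMem_zero_span ha'0) haa ha'.2.1 (by simp) (by simp)
  have hv0 : v ≠ 0 := fun e => by simp [e] at hva
  refine ⟨cr G a' a', v, h.rel_E ha ha'0 haa ha'.2.1, by rw [cr_mul, ha'.2.1, zero_smul], hv0, hv, ?_, ?_⟩
  · simp only [← mulVec_mulVec, cr_mulVec, mulVec_smul, map_smul, smul_eq_mul, ha'.2.2, h.hg.symm a' a,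
      h.hg.symm a v, h.hg.symm a' v]
    ring
  · simp only [← mulVec_mulVec, cr_mulVec, mulVec_smul, map_smul, smul_eq_mul, ha'.2.2, mul_one,
      h.hg.symm a' v]
    exact mul_ne_zero hva' (by simpa using hva)

/-- The partner of a pair site giving a long root site. -/
lemma site_D {X : Matrix (Fin k) (Fin k) F} (hX : IsN G X) :
    ∃ (X' : Matrix (Fin k) (Fin k) F) (e : Fin k → F), Rel G M X X' ∧ e ≠ 0 ∧ gB G e e = 0 ∧
      X * X' = (-1 : F) • cr G e e ∧ X' * X = (-1 : F) • cr G e e ∧ X * (X' * X) = 0 ∧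
      X' * (X * X') = 0 := by
  obtain ⟨a, b, hb, rfl⟩ := hX
  obtain ⟨a', b', -, hbb', -, hab', -⟩ := h.hg.exists_companions hb
  have haa := hb.2.2.1
  have hp' : Pair₂ (gB G) a b' := ⟨hb.1, fun hm => by
    obtain ⟨s, rfl⟩ := Submodule.mem_span_singleton.1 hm
    have := hbb'.2.2
    simp [h.hg.symm b a, hb.2.2.2.2] at this, haa, hbb'.2.1, hab'⟩
  have e1 : nn G a b' * nn G a b = -cr G a a := by
    simp [nn, mul_sub, sub_mul, cr_mul, haa, hb.2.2.2.2, h.hg.symm b' a, hab',
      h.hg.symm b' b, hbb'.2.2]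
  have e2 : nn G a b * nn G a b' = -cr G a a := by
    simp [nn, mul_sub, sub_mul, cr_mul, haa, hb.2.2.2.2, h.hg.symm b a, hab', hbb'.2.2]
  refine ⟨nn G a b', a, h.rel_N hb hp', hb.1, haa, by rw [e2, neg_one_smul], by rw [e1, neg_one_smul],
    ?_, ?_⟩
  · rw [e1]; simp [nn, sub_mul, cr_mul, haa, hb.2.2.2.2, h.hg.symm b a]
  · rw [e2]; simp [nn, sub_mul, cr_mul, haa, hab', h.hg.symm b' a]

/-- The partner of a pair site giving a non-zero commutator. -/
lemma site_q {X : Matrix (Fin k) (Fin k) F} (hX : IsN G X) :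
    ∃ X', Rel G M X X' ∧ X * X' - X' * X ≠ 0 := by
  obtain ⟨a, b, hb, rfl⟩ := hX
  obtain ⟨a', b', haa', hbb', ha'b, hab', ha'b'⟩ := h.hg.exists_companions hb
  have hp' : Pair₂ (gB G) a' b' := ⟨fun e => by simpa [e] using haa'.2.2, fun hm => by
    obtain ⟨s, rfl⟩ := Submodule.mem_span_singleton.1 hm
    have := hbb'.2.2
    simp [h.hg.symm b a', ha'b] at this, haa'.2.1, hbb'.2.1, ha'b'⟩
  refine ⟨nn G a' b', h.rel_N hb hp', fun e => hb.1 ?_⟩
  have := congrArg (fun D => D *ᵥ a) e
  simp only [nn, sub_mul, mul_sub, cr_mul, sub_mulVec, smul_mulVec, cr_mulVec, haa'.2.2, hbb'.2.2, ha'b,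
    hab', hb.2.2.1, hb.2.2.2.2, h.hg.symm a' a, h.hg.symm b' b, h.hg.symm b a', h.hg.symm b' a,
    h.hg.symm b a, neg_mulVec, zero_mulVec, zero_smul, one_smul, smul_zero, sub_zero, zero_sub, neg_neg,
    sub_self, neg_zero] at this
  simpa using this

/-- **Two shapes give sandwiched commutators.** -/
theorem grow {X X' : Fin t → Matrix (Fin k) (Fin k) F} {l l' : F}
    (hX : Root F M (l • pureMat X)) (hX' : Root F M (l' • pureMat X'))
    (hsq : ∃ i, X i * X i = 0) (hsq' : ∃ i, X' i * X' i = 0)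
    (hp : ∃ p, X p * (X' p * X p) = 0) (hq : ∃ q, X' q * (X q * X' q) = 0)
    (U : Finset (Fin t)) (v : Fin t → Fin k → F) (hv : ∀ i ∈ U, gB G (v i) (v i) = 0)
    (hanch : ∃ p, p ∉ U ∧ X p * X' p * (X p * X' p) = 0 ∧ X p * X' p * (X' p * X p) = 0 ∧
      X' p * X p * (X p * X' p) = 0 ∧ X' p * X p * (X' p * X p) = 0) :
    Root F M
      ((l * l' * ∏ i ∈ U, gB G (v i) ((X i * X' i) *ᵥ v i)) •
          pureMat (fun i => if i ∈ U then cr G (v i) (v i) else X i * X' i) -
       (l * l' * ∏ i ∈ U, gB G (v i) ((X' i * X i) *ᵥ v i)) •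
          pureMat (fun i => if i ∈ U then cr G (v i) (v i) else X' i * X i)) := by
  classical
  set Y : Fin t → Matrix (Fin k) (Fin k) F := fun i => X i * X' i
  set Z : Fin t → Matrix (Fin k) (Fin k) F := fun i => X' i * X i
  have hP : Root F M ((l * l') • (pureMat Y - pureMat Z)) := by
    intro s
    obtain ⟨iX, hiX⟩ := hsq
    obtain ⟨iX', hiX'⟩ := hsq'
    obtain ⟨p, hp⟩ := hp
    obtain ⟨q, hq⟩ := hq
    have h1 := hX 1
    have h2 := hX' s
    rw [one_smul] at h1
    have z : ∀ (A' B' : Fin t → Matrix (Fin k) (Fin k) F), ∀ i, A' i * B' i = 0 →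
        pureMat A' * pureMat B' = 0 := fun A' B' i e => by
      rw [pureMat_mul]; exact pureMat_eq_zero _ (i := i) e
    have h3 := InM.comm h1 h2
      (by rw [smul_mul_smul_comm, z X X iX hiX, smul_zero])
      (by rw [smul_mul_smul_comm, smul_mul_smul_comm, z X' X' iX' hiX', smul_zero, smul_zero])
      (by
        have : pureMat X * (pureMat X' * pureMat X) = 0 := by
          rw [pureMat_mul, pureMat_mul]
          exact pureMat_eq_zero _ (i := p) hp
        simp [smul_mul_assoc, mul_smul_comm, this])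
      (by
        have : pureMat X' * (pureMat X * pureMat X') = 0 := by
          rw [pureMat_mul, pureMat_mul]
          exact pureMat_eq_zero _ (i := q) hq
        simp [smul_mul_assoc, mul_smul_comm, this])
    simp only [smul_mul_assoc, mul_smul_comm, pureMat_mul, smul_smul] at h3
    convert h3 using 2
    simp only [smul_sub, smul_smul, Y, Z]
    module
  obtain ⟨p, hpU, yy, yz, zy, zz⟩ := hanch
  have key : ∀ W : Finset (Fin t), W ⊆ U → Root F M
      ((l * l' * ∏ i ∈ W, gB G (v i) (Y i *ᵥ v i)) •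
          pureMat (fun i => if i ∈ W then cr G (v i) (v i) else Y i) -
       (l * l' * ∏ i ∈ W, gB G (v i) (Z i *ᵥ v i)) •
          pureMat (fun i => if i ∈ W then cr G (v i) (v i) else Z i)) := by
    intro W
    induction W using Finset.induction with
    | empty => intro _; simpa [smul_sub] using hP
    | insert j W hj ih =>
      intro hWU
      have hW := ih ((Finset.subset_insert j W).trans hWU)
      set YW := fun i => if i ∈ W then cr G (v i) (v i) else Y i with hYW
      set ZW := fun i => if i ∈ W then cr G (v i) (v i) else Z i with hZW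
      have hjp : p ≠ j := fun e => hpU (e ▸ hWU (Finset.mem_insert_self j W))
      have hpW : p ∉ W := fun e => hpU (hWU (Finset.mem_insert_of_mem e))
      have eY : YW p = X p * X' p := by simp [hYW, hpW, Y]
      have eZ : ZW p = X' p * X p := by simp [hZW, hpW, Z]
      have k1 : ∀ C, pureMat YW * site j C * pureMat YW = 0 := fun C =>
        pureMat_site_pure _ _ hjp (by rw [eY, yy]) C
      have k2 : ∀ C, pureMat YW * site j C * pureMat ZW = 0 := fun C =>
        pureMat_site_pure _ _ hjp (by rw [eY, eZ, yz]) C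
      have k3 : ∀ C, pureMat ZW * site j C * pureMat YW = 0 := fun C =>
        pureMat_site_pure _ _ hjp (by rw [eY, eZ, zy]) C
      have k4 : ∀ C, pureMat ZW * site j C * pureMat ZW = 0 := fun C =>
        pureMat_site_pure _ _ hjp (by rw [eZ, zz]) C
      have hsand : ∀ A' : Fin t → Matrix (Fin k) (Fin k) F, (∀ i, i ∈ W → A' i = cr G (v i) (v i)) →
          ∀ Y' : Fin t → Matrix (Fin k) (Fin k) F, (∀ i, i ∉ W → A' i = Y' i) →
          site j (cr G (v j) (v j)) * pureMat A' * site j (cr G (v j) (v j)) =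
            gB G (v j) (Y' j *ᵥ v j) •
              pureMat (fun i => if i ∈ insert j W then cr G (v i) (v i) else Y' i) := by
        intro A' hA' Y' hY'
        set c := gB G (v j) (Y' j *ᵥ v j) with hc
        rw [site, pureMat_mul, pureMat_mul,
          show c = ∏ i : Fin t, (if i = j then c else 1) by rw [Finset.prod_ite_eq']; simp,
          ← pureMat_smul]
        congr 1
        funext i
        by_cases hi : i = j
        · subst hi; simp [hY' i hj, ← E_eq, E_mul_E, hc, gB_apply]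
        · by_cases hiW : i ∈ W
          · simp [hi, hiW, hA' i hiW]
          · simp [hi, hiW, hY' i hiW]
      have h1 := h.sandwich_E (j := j) (hv j (hWU (Finset.mem_insert_self j W))) hW (fun C => by
        simp [sub_mul, mul_sub, smul_mul_assoc, mul_smul_comm, k1, k2, k3, k4])
      rw [mul_sub, sub_mul, mul_smul_comm, smul_mul_assoc, mul_smul_comm, smul_mul_assoc,
        hsand YW (fun i hi => if_pos hi) Y (fun i hi => if_neg hi),
        hsand ZW (fun i hi => if_pos hi) Z (fun i hi => if_neg hi), smul_smul, smul_smul] at h1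
      rw [Finset.prod_insert hj, Finset.prod_insert hj]
      convert h1 using 2 <;> congr 1 <;> ring
  exact key U Finset.Subset.rfl

/-- **A member with one long root site gives a long root element.** -/
theorem long_root (hS : Single G M) :
    ∃ (q : Fin t) (l : F) (v : Fin t → Fin k → F) (a b : Fin k → F), l ≠ 0 ∧
      (∀ i, v i ≠ 0 ∧ gB G (v i) (v i) = 0) ∧ Pair₂ (gB G) a b ∧
      Root F M (l • pureMat (Function.update (fun i => cr G (v i) (v i)) q (nn G a b))) := by
  classical
  haveI := h.nz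
  obtain ⟨T0, D0, h0⟩ := h.shape_of_single hS
  obtain ⟨T, hT, hmax⟩ := Finset.exists_max_image
    (Finset.univ.filter fun T => ∃ D, Shape G M T D) Finset.card ⟨T0, by simpa using ⟨D0, h0⟩⟩
  have hmax' : ∀ T' D', Shape G M T' D' → T'.card ≤ T.card := fun T' D' h' =>
    hmax T' (by simpa using ⟨D', h'⟩)
  obtain ⟨D, ⟨j, hjT⟩, ⟨q, hqD⟩, hdis, l, X, hl, hXT, hXD, hX1, hroot⟩ := (Finset.mem_filter.1 hT).2
  have hTD : ∀ i ∈ T, i ∉ D := fun i hi hi' => Finset.disjoint_left.1 hdis hi hi'
  choose! Tp Tv hTrel hTsq hTv0 hTv hTeq hTne using fun i hi => h.site_T (hXT i hi)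
  choose! Dp De hDrel hDe0 hDe hDl hDr hDxyx hDyxy using fun i hi => h.site_D (hXD i hi)
  obtain ⟨Qp, hQrel, hQne⟩ := h.site_q (hXD q hqD)
  by_cases hD2 : ∃ p ∈ D, p ≠ q
  · exfalso
    obtain ⟨p, hpD, hpq⟩ := hD2
    obtain ⟨X', hX'def⟩ : ∃ X' : Fin t → Matrix (Fin k) (Fin k) F, X' = fun i =>
        if i ∈ T then Tp i else if i = q then Qp else if i ∈ D then Dp i else 1 := ⟨_, rfl⟩
    have eT : ∀ i ∈ T, X' i = Tp i := fun i hi => by simp [hX'def, hi]
    have eq' : X' q = Qp := by simp [hX'def, show q ∉ T from fun e => hTD q e hqD]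
    have eD : ∀ i ∈ D, i ≠ q → X' i = Dp i := fun i hi hiq => by
      simp [hX'def, hiq, hi, show i ∉ T from fun e => hTD i e hi]
    have e1 : ∀ i, i ∉ T → i ∉ D → X' i = 1 := fun i hi hi' => by
      simp [hX'def, hi, hi', show i ≠ q from fun e => hi' (e ▸ hqD)]
    obtain ⟨l', hl', hroot'⟩ := root_moved (G := G) hl hroot (X' := X') fun i => by
      by_cases hiT : i ∈ T
      · rw [eT i hiT]; exact hTrel i hiT
      by_cases hiq : i = q
      · subst hiq; rw [eq']; exact hQrel
      by_cases hiD : i ∈ D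
      · rw [eD i hiD hiq]; exact hDrel i hiD
      · rw [e1 i hiT hiD, hX1 i hiT hiD]; exact Rel.refl 1
    have hpT : p ∉ T := fun e => hTD p e hpD
    have eE : ∀ i ∈ D, (-1 : F) • cr G (De i) (De i) * (-1 : F) • cr G (De i) (De i) = 0 := fun i hi => by
      rw [smul_mul_smul_comm, cr_mul, hDe i hi, zero_smul, smul_zero]
    have hR := h.grow hroot hroot' ⟨j, h.IsE_sq (hXT j hjT)⟩ ⟨j, by rw [eT j hjT]; exact hTsq j hjT⟩
      ⟨p, by rw [eD p hpD hpq]; exact hDxyx p hpD⟩ ⟨p, by rw [eD p hpD hpq]; exact hDyxy p hpD⟩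
      T Tv (fun i hi => hTv i hi)
      ⟨p, hpT, by rw [eD p hpD hpq, hDl p hpD, hDr p hpD]; exact ⟨eE p hpD, eE p hpD, eE p hpD, eE p hpD⟩⟩
    have hprod : ∏ i ∈ T, gB G (Tv i) ((X' i * X i) *ᵥ Tv i) =
        ∏ i ∈ T, gB G (Tv i) ((X i * X' i) *ᵥ Tv i) :=
      Finset.prod_congr rfl fun i hi => by rw [eT i hi]; exact (hTeq i hi).symm
    rw [hprod] at hR
    set c := l * l' * ∏ i ∈ T, gB G (Tv i) ((X i * X' i) *ᵥ Tv i) with hc
    have hc0 : c ≠ 0 := mul_ne_zero (mul_ne_zero hl hl') (Finset.prod_ne_zero_iff.2 fun i hi => by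
      rw [eT i hi]; exact hTne i hi)
    obtain ⟨T', hT'⟩ : ∃ T', T' = T ∪ D.erase q := ⟨_, rfl⟩
    obtain ⟨X0, hX0⟩ : ∃ X0 : Fin t → Matrix (Fin k) (Fin k) F, X0 = fun i =>
        if i ∈ T then cr G (Tv i) (Tv i) else if i ∈ D.erase q then cr G (De i) (De i) else 1 := ⟨_, rfl⟩
    obtain ⟨s, hs⟩ : ∃ s : F, s = ∏ i : Fin t, (if i ∈ D.erase q then (-1 : F) else 1) := ⟨_, rfl⟩
    have hX0q : X0 q = 1 := by simp [hX0, show q ∉ T from fun e => hTD q e hqD]
    have hform : ∀ P Q : Fin t → Matrix (Fin k) (Fin k) F,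
        (∀ i ∈ D, i ≠ q → P i * Q i = (-1 : F) • cr G (De i) (De i)) →
        (∀ i, i ∉ T → i ∉ D → P i * Q i = 1) →
        pureMat (fun i => if i ∈ T then cr G (Tv i) (Tv i) else P i * Q i) =
          s • (site q (P q * Q q) * pureMat X0) := by
      intro P Q hPD hP1
      rw [hs, ← pureMat_update_mul X0 hX0q, ← pureMat_smul]
      congr 1
      funext i
      by_cases hiT : i ∈ T
      · simp [hiT, hX0, show i ≠ q from fun e => hTD i hiT (e ▸ hqD), hTD i hiT]
      by_cases hiq : i = q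
      · subst hiq; simp [hiT]
      by_cases hiD : i ∈ D
      · simp [hiT, hiq, hiD, hX0, hPD i hiD hiq]
      · simp [hiT, hiq, hiD, hX0, hP1 i hiT hiD]
    rw [hform X X' (fun i hi hiq => by rw [eD i hi hiq]; exact hDl i hi)
        (fun i hi hi' => by rw [e1 i hi hi', hX1 i hi hi', one_mul]),
      hform X' X (fun i hi hiq => by rw [eD i hi hiq]; exact hDr i hi)
        (fun i hi hi' => by rw [e1 i hi hi', hX1 i hi hi', one_mul]),
      ← smul_sub, ← smul_sub, ← sub_mul, ← site_sub, smul_smul, eq',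
      (site_comm_pure q _ X0 hX0q).eq, ← mul_smul_comm] at hR
    have hs0 : s ≠ 0 := by
      rw [hs]
      exact Finset.prod_ne_zero_iff.2 fun i _ => by split_ifs <;> simp
    obtain ⟨T'', D'', hsub, hsh⟩ := h.exists_shape (T := T') ⟨j, by simp [hT', hjT]⟩ (X := X0)
      (fun i hi => by
        rcases Finset.mem_union.1 (hT' ▸ hi) with hi | hi
        · exact ⟨Tv i, hTv0 i hi, hTv i hi, by simp [hX0, hi]⟩
        · obtain ⟨hiq, hiD⟩ := Finset.mem_erase.1 hi
          exact ⟨De i, hDe0 i hiD, hDe i hiD, by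
            simp [hX0, hiq, hiD, show i ∉ T from fun e => hTD i e hiD]⟩)
      (fun i hi => by simp [hT'] at hi; simp [hX0, hi.1]; intro h1 h2; exact absurd h2 (hi.2 h1))
      (smul_ne_zero (mul_ne_zero hc0 hs0) fun e => hQne (site_injective q (e.trans (site_zero q).symm)))
      (fun i hi Z => by
        have hiq : i ≠ q := fun e => by
          subst e
          simp [hT'] at hi
          exact hTD i hi hqD
        exact (show Commute (site i Z) (site q _) from site_comm hiq Z _).smul_right _) hR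
    have h1 : (insert p T).card ≤ T''.card := Finset.card_le_card fun x hx => hsub (by
      rcases Finset.mem_insert.1 hx with rfl | hx
      · simp [hT', hpq, hpD]
      · simp [hT', hx])
    have h2 := hmax' T'' D'' hsh
    rw [Finset.card_insert_of_notMem hpT] at h1
    omega
  push Not at hD2
  have hDq : ∀ i, i ∉ T → i ≠ q → X i = 1 := fun i hi hiq => hX1 i hi fun e => hiq (hD2 i e)
  have hqT : q ∉ T := fun e => hTD q e hqD
  by_cases hU : ∃ i, i ∉ T ∧ i ≠ q
  · exfalso
    obtain ⟨i, hiT, hiq⟩ := hU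
    have hjq : j ≠ q := fun e => hqT (e ▸ hjT)
    have hji : j ≠ i := fun e => hiT (e ▸ hjT)
    let π : Equiv.Perm (Fin t) := Equiv.swap j q * Equiv.swap j i
    have hπ : π.IsThreeCycle := Equiv.Perm.isThreeCycle_swap_mul_swap_same hjq hji hiq.symm
    have pj : π j = i := by simp [π, Equiv.swap_apply_of_ne_of_ne, hji.symm, hiq]
    have pi' : π i = q := by simp [π]
    have pq : π q = j := by simp [π, Equiv.swap_apply_of_ne_of_ne, hjq.symm, hiq.symm]
    have po : ∀ m, m ≠ j → m ≠ i → m ≠ q → π m = m := fun m a b c => by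
      simp [π, Equiv.swap_apply_of_ne_of_ne, a, b, c]
    obtain ⟨a, b, hab, hXq⟩ := hXD q hqD
    obtain ⟨a', x, -, hbx, -, hax, -⟩ := h.hg.exists_companions hab
    have hx0 : x ≠ 0 := fun e => by simpa [e] using hbx.2.2
    obtain ⟨w, hw, -, hwa, hwx⟩ := h.mid (h.notMem_zero_span hab.1) (h.notMem_zero_span hx0) hab.2.2.1
      hbx.2.1 (by simp) (by simp)
    have hroot2 : Root F M (l • pureMat fun m => X (π m)) := by
      have := hroot.conj (inv_mem (h.perm3 π hπ))
      convert this using 1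
      show _ = factorPerm k π⁻¹ * (l • pureMat X) * factorPerm k π
      rw [mul_smul_comm, smul_mul_assoc, mul_assoc, pureMat_mul_factorPerm, ← mul_assoc, factorPerm_mul,
        inv_mul_cancel, factorPerm_one, one_mul]
    obtain ⟨X', hX'def⟩ : ∃ X' : Fin t → Matrix (Fin k) (Fin k) F, X' = fun m =>
        if m = j then 1 else if m = i then X q else if m = q then cr G x x
        else if m ∈ T then Tp m else 1 := ⟨_, rfl⟩
    have ej : X' j = 1 := by simp [hX'def]
    have ei : X' i = X q := by simp [hX'def, hji.symm]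
    have eq' : X' q = cr G x x := by simp [hX'def, hjq.symm, hiq.symm]
    have eT : ∀ m ∈ T, m ≠ j → X' m = Tp m := fun m hm hmj => by
      simp [hX'def, hmj, hm, show m ≠ i from fun e => hiT (e ▸ hm),
        show m ≠ q from fun e => hqT (e ▸ hm)]
    have e1 : ∀ m, m ∉ T → m ≠ i → m ≠ q → X' m = 1 := fun m a b c => by
      simp [hX'def, a, b, c]
    obtain ⟨l', hl', hroot'⟩ := root_moved (G := G) hl hroot2 (X' := X') fun m => by
      by_cases hmj : m = j
      · subst hmj; rw [pj, ej, hDq i hiT hiq]; exact Rel.refl 1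
      by_cases hmi : m = i
      · subst hmi; rw [pi', ei]; exact Rel.refl _
      by_cases hmq : m = q
      · subst hmq; rw [pq, eq']
        obtain ⟨e, he0, hee, heq⟩ := hXT j hjT
        rw [heq]; exact h.rel_E he0 hx0 hee hbx.2.1
      rw [po m hmj hmi hmq]
      by_cases hmT : m ∈ T
      · rw [eT m hmT hmj]; exact hTrel m hmT
      · rw [e1 m hmT hmi hmq, hDq m hmT hmq]; exact Rel.refl 1
    have hba : gB G b a = 0 := by rw [h.hg.symm, hab.2.2.2.2]
    have hxa : gB G x a = 0 := by rw [h.hg.symm, hax]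
    have hAq : X q * X' q = cr G a x := by
      rw [eq', hXq, nn, sub_mul, cr_mul, cr_mul, hbx.2.2, hax, one_smul, zero_smul, sub_zero]
    have hBq : X' q * X q = (-1 : F) • cr G x a := by
      rw [eq', hXq, nn, mul_sub, cr_mul, cr_mul, hxa, h.hg.symm x b, hbx.2.2, one_smul, zero_smul,
        zero_sub, neg_one_smul]
    have hXj : X j * X j = 0 := h.IsE_sq (hXT j hjT)
    obtain ⟨v, hvdef⟩ : ∃ v : Fin t → Fin k → F, v = Function.update Tv q w := ⟨_, rfl⟩
    have vq : v q = w := by simp [hvdef]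
    have vT : ∀ m ∈ T, v m = Tv m := fun m hm => by
      rw [hvdef, Function.update_of_ne (fun e : m = q => hqT (e ▸ hm))]
    have hqe : q ∉ T.erase j := fun e => hqT (Finset.mem_of_mem_erase e)
    have hR := h.grow hroot hroot' ⟨j, hXj⟩ ⟨q, by rw [eq', cr_mul, hbx.2.1, zero_smul]⟩
      ⟨j, by rw [ej, one_mul, hXj]⟩ ⟨q, by rw [hAq, eq', cr_mul, hxa, zero_smul]⟩
      (insert q (T.erase j)) v
      (fun m hm => by
        rcases Finset.mem_insert.1 hm with rfl | hm
        · rw [vq]; exact hw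
        · rw [vT m (Finset.mem_of_mem_erase hm)]; exact hTv m (Finset.mem_of_mem_erase hm))
      ⟨j, by simp [hjq], by simp [ej, hXj]⟩
    rw [Finset.prod_insert hqe, Finset.prod_insert hqe, vq, hAq, hBq] at hR
    have hprod : ∏ m ∈ T.erase j, gB G (v m) ((X' m * X m) *ᵥ v m) =
        ∏ m ∈ T.erase j, gB G (v m) ((X m * X' m) *ᵥ v m) := Finset.prod_congr rfl fun m hm => by
      obtain ⟨hmj, hmT⟩ := Finset.mem_erase.1 hm
      rw [eT m hmT hmj, vT m hmT]; exact (hTeq m hmT).symm
    rw [hprod] at hR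
    set P := ∏ m ∈ T.erase j, gB G (v m) ((X m * X' m) *ᵥ v m) with hPdef
    have hP0 : P ≠ 0 := Finset.prod_ne_zero_iff.2 fun m hm => by
      obtain ⟨hmj, hmT⟩ := Finset.mem_erase.1 hm
      rw [eT m hmT hmj, vT m hmT]; exact hTne m hmT
    obtain ⟨Y, hY⟩ : ∃ Y : Fin t → Matrix (Fin k) (Fin k) F, Y = fun m =>
        if m ∈ insert q (T.erase j) then cr G (v m) (v m) else X m * X' m := ⟨_, rfl⟩
    have hYeq : (fun m => if m ∈ insert q (T.erase j) then cr G (v m) (v m) else X' m * X m) = Y := by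
      rw [hY]
      funext m
      split_ifs with hm
      · rfl
      simp only [Finset.mem_insert, Finset.mem_erase, not_or, not_and] at hm
      by_cases hmj : m = j
      · subst hmj; rw [ej, one_mul, mul_one]
      have hmT := hm.2 hmj
      by_cases hmi : m = i
      · subst hmi; rw [ei, hDq m hiT hiq, one_mul, mul_one]
      · rw [e1 m hmT hmi hm.1, one_mul, mul_one]
    rw [hYeq, ← hY, ← sub_smul] at hR
    have hμ : l * l' * (gB G w (cr G a x *ᵥ w) * P) -
        l * l' * (gB G w (((-1 : F) • cr G x a) *ᵥ w) * P) =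
          2 * (l * l' * P * (gB G x w * gB G w a)) := by
      simp only [smul_mulVec, cr_mulVec, map_smul, smul_eq_mul, h.hg.symm a w, h.hg.symm w x]
      ring
    have hle := hmax' (insert q T) {i} ⟨⟨q, Finset.mem_insert_self _ _⟩, Finset.singleton_nonempty i,
      by simp [hiT, hiq], _, Y, by
        rw [hμ]
        exact mul_ne_zero h.two (mul_ne_zero (mul_ne_zero (mul_ne_zero hl hl') hP0)
          (mul_ne_zero (by rw [h.hg.symm]; exact hwx) hwa)),
      fun m hm => by
        by_cases hmj : m = j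
        · subst hmj
          have : Y m = X m := by simp [hY, hjq, ej]
          rw [this]; exact hXT m hjT
        · have hm' : m ∈ insert q (T.erase j) := by
            rcases Finset.mem_insert.1 hm with rfl | hm
            · simp
            · simp [hmj, hm]
          refine ⟨v m, ?_, ?_, by simp only [hY, if_pos hm']⟩
          · rcases Finset.mem_insert.1 hm with rfl | hm
            · rw [vq]; exact fun e => by simp [e] at hwa
            · rw [vT m hm]; exact hTv0 m hm
          · rcases Finset.mem_insert.1 hm with rfl | hm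
            · rw [vq]; exact hw
            · rw [vT m hm]; exact hTv m hm,
      fun m hm => by
        rw [Finset.mem_singleton.1 hm]
        refine ⟨a, b, hab, ?_⟩
        simp [hY, hiq, hiT, ei, hDq i hiT hiq, hXq],
      fun m hm hm' => by
        rw [Finset.mem_insert, not_or] at hm
        rw [Finset.mem_singleton] at hm'
        simp [hY, hm.1, hm.2, e1 m hm.2 hm' hm.1, hDq m hm.2 hm.1],
      hR⟩
    rw [Finset.card_insert_of_notMem hqT] at hle
    omega
  push Not at hU
  obtain ⟨a, b, hab, hXq⟩ := hXD q hqD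
  obtain ⟨e, he, hee, -⟩ := hXT j hjT
  have : ∀ i, ∃ v, (v ≠ 0 ∧ gB G v v = 0) ∧ (i ≠ q → X i = cr G v v) := fun i => by
    by_cases hi : i ∈ T
    · obtain ⟨u, hu, huu, hX⟩ := hXT i hi; exact ⟨u, ⟨hu, huu⟩, fun _ => hX⟩
    · exact ⟨e, ⟨he, hee⟩, fun hiq => absurd (hU i hi) hiq⟩
  choose v hv hvX using this
  refine ⟨q, l, v, a, b, hl, hv, hab, ?_⟩
  convert hroot using 2
  congr 1
  funext i
  by_cases hi : i = q
  · subst hi; rw [Function.update_self, hXq]
  · rw [Function.update_of_ne hi, hvX i hi]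

end Sys

end Cfsg.Agent.MaxSub.OrthWreathBig
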