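import Cfsg.Agent.MaxSub.OrthWreathBig.Sites

/-!
Root elements of pure shape, and how two of them give a larger set of long root sites.
-/

set_option autoImplicit false
set_option linter.unusedSectionVars false
set_option linter.unusedSimpArgs false
set_option linter.style.haveILetI false

namespace Cfsg.Agent.MaxSub.OrthWreathBig

open Matrix Module Cfsg.Agent.NotMax Cfsg.Agent.GeoClasses Cfsg.Agent.MaxSub.TensorPowSp
open Cfsg.Agent.MaxSub.OrthTensor (Sym Hyp Pair₂)

variable {F : Type*} [Field F] {k t : ℕ} {G : Matrix (Fin k) (Fin k) F}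
  {M : Subgroup (GL (Fin t → Fin k) F)}

/-- A long root site. -/
def IsE (G X : Matrix (Fin k) (Fin k) F) : Prop := ∃ a, a ≠ 0 ∧ gB G a a = 0 ∧ X = cr G a a

/-- A pair site. -/
def IsN (G X : Matrix (Fin k) (Fin k) F) : Prop := ∃ a b, Pair₂ (gB G) a b ∧ X = nn G a b

/-- A root element of pure shape. -/
def Shape (G : Matrix (Fin k) (Fin k) F) (M : Subgroup (GL (Fin t → Fin k) F))
    (T D : Finset (Fin t)) : Prop :=
  T.Nonempty ∧ D.Nonempty ∧ Disjoint T D ∧
    ∃ (l : F) (X : Fin t → Matrix (Fin k) (Fin k) F), l ≠ 0 ∧ (∀ i ∈ T, IsE G (X i)) ∧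
      (∀ i ∈ D, IsN G (X i)) ∧ (∀ i, i ∉ T → i ∉ D → X i = 1) ∧ Root F M (l • pureMat X)

/-- Nothing of `P` passes through the site `j`. -/
def Kill (j : Fin t) (P : Matrix (Fin t → Fin k) (Fin t → Fin k) F) : Prop :=
  ∀ Z, P * site j Z * P = 0

lemma pureMat_site_pure (Y Z : Fin t → Matrix (Fin k) (Fin k) F) {j p : Fin t} (hpj : p ≠ j)
    (e : Y p * Z p = 0) (W : Matrix (Fin k) (Fin k) F) : pureMat Y * site j W * pureMat Z = 0 := by
  rw [site, pureMat_mul, pureMat_mul]
  exact pureMat_eq_zero _ (i := p) (by rw [Function.update_of_ne hpj, Pi.one_apply, mul_one, e])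

lemma root_zero : Root F M (0 : Matrix (Fin t → Fin k) (Fin t → Fin k) F) := fun s =>
  ⟨1, one_mem M, by simp⟩

namespace Sys

variable (h : Sys G M)
include h

lemma root_nn {a b : Fin k → F} (hp : Pair₂ (gB G) a b) (j : Fin t) :
    Root F M (site j (nn G a b)) := fun s => h.nn_mem hp j s

/-- Sandwiches by a site of a pair. -/
lemma sandwich_nn {a b : Fin k → F} (hp : Pair₂ (gB G) a b) {j : Fin t}
    {P : Matrix (Fin t → Fin k) (Fin t → Fin k) F} (hP : Root F M P) (hk : Kill j P) :
    Root F M (site j (nn G a b) * P * site j (nn G a b)) ∧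
      Kill j (site j (nn G a b) * P * site j (nn G a b)) := by
  refine ⟨(hP.diff h.two (h.root_nn hp j) ?_ ?_ (hk _)).2, fun Z => ?_⟩
  · rw [site_mul, h.nn_sq hp, site_zero]
  · simpa [site_one] using hk 1
  · calc site j (nn G a b) * P * site j (nn G a b) * site j Z * (site j (nn G a b) * P * site j (nn G a b))
        = site j (nn G a b) * (P * (site j (nn G a b) * site j Z * site j (nn G a b)) * P) *
            site j (nn G a b) := by simp only [mul_assoc]
      _ = 0 := by rw [site_mul, site_mul, hk, mul_zero, zero_mul]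

variable [Finite F]

/-- Sandwiches by a long root site. -/
lemma sandwich_E {a : Fin k → F} (haa : gB G a a = 0) {j : Fin t}
    {P : Matrix (Fin t → Fin k) (Fin t → Fin k) F} (hP : Root F M P) (hk : Kill j P) :
    Root F M (site j (cr G a a) * P * site j (cr G a a)) := by
  rcases eq_or_ne a 0 with rfl | ha
  · simpa [site_zero] using root_zero
  obtain ⟨b, hb⟩ := h.hg.exists_pair₂ h.finrank_five haa ha
  obtain ⟨a', b', -, hbb', -, hab', -⟩ := h.hg.exists_companions hb
  have hp' : Pair₂ (gB G) a b' := ⟨ha, fun hm => by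
    obtain ⟨s, rfl⟩ := Submodule.mem_span_singleton.1 hm
    have := hbb'.2.2
    simp [h.hg.symm b a, hb.2.2.2.2] at this, haa, hbb'.2.1, hab'⟩
  obtain ⟨h1, h1k⟩ := h.sandwich_nn hb hP hk
  obtain ⟨h2, -⟩ := h.sandwich_nn hp' h1 h1k
  have e1 : nn G a b' * nn G a b = -cr G a a := by
    simp [nn, mul_sub, sub_mul, cr_mul, haa, hb.2.2.2.2, h.hg.symm b' a, hab',
      h.hg.symm b' b, hbb'.2.2]
  have e2 : nn G a b * nn G a b' = -cr G a a := by
    simp [nn, mul_sub, sub_mul, cr_mul, haa, hb.2.2.2.2, h.hg.symm b a, hab', hbb'.2.2]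
  convert h2 using 1
  calc site j (cr G a a) * P * site j (cr G a a)
      = site j (-cr G a a) * P * site j (-cr G a a) := by rw [site_neg]; simp
    _ = _ := by
        conv_lhs => arg 2; rw [← e2, ← site_mul]
        conv_lhs => arg 1; arg 1; rw [← e1, ← site_mul]
        simp only [mul_assoc]

omit [Finite F] in
lemma IsE_ne {X : Matrix (Fin k) (Fin k) F} (hX : IsE G X) : X ≠ 0 := by
  obtain ⟨a, ha, -, rfl⟩ := hX
  exact h.E_ne_zero ha

omit [Finite F] in
lemma IsE_sq {X : Matrix (Fin k) (Fin k) F} (hX : IsE G X) : X * X = 0 := by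
  obtain ⟨a, -, haa, rfl⟩ := hX
  rw [cr_mul, haa, zero_smul]

omit [Finite F] in
lemma root_skew {B : Matrix (Fin t → Fin k) (Fin t → Fin k) F} (hB : Root F M B) :
    Bᵀ * gV G t + gV G t * B = 0 := by
  have key : ∀ s : F, s • (Bᵀ * gV G t + gV G t * B) + (s * s) • (Bᵀ * gV G t * B) = 0 := by
    intro s
    obtain ⟨u, hu, hue⟩ := hB s
    have := h.iso u hu
    rw [hue, transpose_add, transpose_one, transpose_smul, add_mul, one_mul, mul_add, mul_one,
      add_mul, smul_mul_assoc, smul_mul_smul_comm, mul_smul_comm] at this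
    rw [← sub_eq_zero] at this
    rw [← this, smul_add]; abel
  have h1 := key 1
  have h2 := key (-1)
  rw [one_smul, one_mul, one_smul] at h1
  rw [neg_one_smul, neg_one_mul, neg_neg, one_smul] at h2
  have : (2 : F) • (Bᵀ * gV G t + gV G t * B) = 0 := by
    rw [two_smul]
    linear_combination (norm := abel) h1 - h2
  exact (smul_eq_zero.1 this).resolve_left h.two

omit [Finite F] in
lemma gV_cancel {X : Matrix (Fin t → Fin k) (Fin t → Fin k) F} (e : gV G t * X = 0) : X = 0 := by
  have hl : pureMat (fun _ : Fin t => G⁻¹) * gV G t = 1 := by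
    rw [gV, pureMat_mul]
    simp only [Matrix.nonsing_inv_mul _ h.det]
    exact pureMat_one k t
  rw [← one_mul X, ← hl, mul_assoc, e, mul_zero]

/-- **Pure shapes.** -/
theorem exists_shape {T : Finset (Fin t)} (hT : T.Nonempty) {X : Fin t → Matrix (Fin k) (Fin k) F}
    (hXT : ∀ i ∈ T, IsE G (X i)) (hX1 : ∀ i, i ∉ T → X i = 1)
    {N : Matrix (Fin t → Fin k) (Fin t → Fin k) F} (hN : N ≠ 0)
    (hcom : ∀ i ∈ T, ∀ Z, Commute (site i Z) N) (hroot : Root F M (pureMat X * N)) :
    ∃ T' D, T ⊆ T' ∧ Shape G M T' D := by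
  classical
  haveI := h.nz
  suffices key : ∀ R : Finset (Fin t), ∃ (T' D : Finset (Fin t)) (X : Fin t → Matrix (Fin k) (Fin k) F)
      (N : Matrix (Fin t → Fin k) (Fin t → Fin k) F),
      T' ⊆ T ∪ R ∧ D ⊆ R ∧ T ⊆ T' ∧ Disjoint T' D ∧ (∀ i ∈ T', IsE G (X i)) ∧
      (∀ i ∈ D, IsN G (X i)) ∧ (∀ i, i ∉ T' → i ∉ D → X i = 1) ∧ N ≠ 0 ∧
      (∀ i ∈ T ∪ R, ∀ Z, Commute (site i Z) N) ∧ Root F M (pureMat X * N) by
    obtain ⟨T', D, X, N, -, -, hTT, hdis, hXT, hXD, hX1, hN, hcom, hroot⟩ := key Finset.univ
    obtain ⟨a, rfl⟩ := h.scalar_of_commute (B := N) fun i _ _ _ => hcom i (by simp) _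
    rw [mul_smul_comm, mul_one] at hroot
    have ha : a ≠ 0 := fun e => hN (by rw [e, zero_smul])
    refine ⟨T', D, hTT, hT.mono hTT, ?_, hdis, a, X, ha, hXT, hXD, hX1, hroot⟩
    by_contra hD
    rw [Finset.not_nonempty_iff_eq_empty] at hD
    subst hD
    have hsym : (pureMat X)ᵀ * gV G t = gV G t * pureMat X := by
      rw [gV, pureMat_transpose, pureMat_mul, pureMat_mul]
      congr 1
      funext i
      by_cases hi : i ∈ T'
      · obtain ⟨b, -, -, e⟩ := hXT i hi
        rw [e, h.cr_transpose_mul]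
      · rw [hX1 i hi (Finset.notMem_empty i)]; simp
    have := h.root_skew hroot
    rw [transpose_smul, smul_mul_assoc, mul_smul_comm, hsym, ← two_smul F, smul_eq_zero] at this
    refine pureMat_ne_zero X (fun i => ?_) (h.gV_cancel ((smul_eq_zero.1
      (this.resolve_left h.two)).resolve_left ha))
    by_cases hi : i ∈ T'
    · exact h.IsE_ne (hXT i hi)
    · rw [hX1 i hi (Finset.notMem_empty i)]; exact one_ne_zero
  intro R
  induction R using Finset.induction with
  | empty =>
    exact ⟨T, ∅, X, N, Finset.subset_union_left, Finset.Subset.refl _, Finset.Subset.refl _,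
      Finset.disjoint_empty_right _, hXT, by simp, fun i hi _ => hX1 i hi, hN, by simpa using hcom, hroot⟩
  | insert m R hmR ih =>
    clear hcom hroot hN hX1 hXT X N
    obtain ⟨T', D, X, N, hT'R, hDR, hTT, hdis, hXT, hXD, hX1, hN, hcom, hroot⟩ := ih
    have hsub : T ∪ R ⊆ T ∪ insert m R := Finset.union_subset_union_right (Finset.subset_insert _ _)
    by_cases hcm : ∀ Z, Commute (site m Z) N
    · refine ⟨T', D, X, N, hT'R.trans hsub, hDR.trans (Finset.subset_insert _ _), hTT, hdis, hXT, hXD,
        hX1, hN, fun i hi => ?_, hroot⟩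
      rcases Finset.mem_union.1 hi with hi | hi
      · exact hcom i (Finset.mem_union_left _ hi)
      rcases Finset.mem_insert.1 hi with rfl | hi
      · exact hcm
      · exact hcom i (Finset.mem_union_right _ hi)
    have hmU : m ∉ T ∪ R := fun e => hcm (hcom m e)
    have hmT : m ∉ T' := fun e => hmU (hT'R e)
    have hmD : m ∉ D := fun e => hmR (hDR e)
    have hXm : X m = 1 := hX1 m hmT hmD
    obtain ⟨j, hj⟩ := hT.mono hTT
    have hX1' : ∀ i, i ∉ T ∪ R → X i = 1 := fun i hi =>
      hX1 i (fun e => hi (hT'R e)) fun e => hi (Finset.mem_union_right _ (hDR e))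
    have hXX : pureMat X * pureMat X = 0 := by
      rw [pureMat_mul]
      exact pureMat_eq_zero _ (i := j) (h.IsE_sq (hXT j hj))
    have hXN : Commute (pureMat X) N := commute_pure _ hcom X hX1'
    have hXs : ∀ W, Commute (site m W) (pureMat X) := fun W => site_comm_pure m W X hXm
    have hkill : Kill m (pureMat X * N) := fun Z => by
      rw [hXN.eq, mul_assoc N, ← (hXs Z).eq, mul_assoc N, ← hXN.eq,
        mul_assoc (site m Z), ← mul_assoc (pureMat X) (pureMat X) N, hXX, zero_mul, mul_zero, mul_zero]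
    have hsand : ∀ W, site m W * (pureMat X * N) * site m W = pureMat X * (site m W * N * site m W) :=
      fun W => by rw [← mul_assoc, (hXs W).eq]; simp only [mul_assoc]
    -- finishing with a new shape at `m`
    have finish : ∀ (W : Matrix (Fin k) (Fin k) F)
        (C : Matrix (Fin t → Fin k) (Fin t → Fin k) F), W ≠ 0 → C ≠ 0 →
        (∀ Z, Commute (site m Z) C) → (∀ i ∈ T ∪ R, ∀ Z, Commute (site i Z) (site m W * C)) →
        Root F M (pureMat X * (site m W * C)) →
        (∀ i ∈ T ∪ insert m R, ∀ Z, Commute (site i Z) C) ∧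
          Root F M (pureMat (Function.update X m W) * C) := by
      intro W C hW hC hCm hCi hr
      refine ⟨fun i hi Z => ?_, ?_⟩
      · by_cases him : i = m
        · subst him; exact hCm Z
        · exact commute_of_site_mul him hW hCm (hCi i (by
            rcases Finset.mem_union.1 hi with e | e
            · exact Finset.mem_union_left _ e
            · exact Finset.mem_union_right _ ((Finset.mem_insert.1 e).resolve_left him)) Z)
      · rw [pureMat_update_mul X hXm, (hXs W).eq, mul_assoc]; exact hr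
    have hci : ∀ (W W' : Matrix (Fin k) (Fin k) F), ∀ i ∈ T ∪ R, ∀ Z,
        Commute (site i Z) (site m W * N * site m W') := by
      intro W W' i hi Z
      have him : i ≠ m := fun e => hmU (e ▸ hi)
      exact ((show Commute (site i Z) (site m W) from site_comm him _ _).mul_right
        (hcom i hi Z)).mul_right (show Commute (site i Z) (site m W') from site_comm him _ _)
    by_cases hA : ∃ a, gB G a a = 0 ∧ bcomp G m a a N ≠ 0
    · obtain ⟨a, haa, hne⟩ := hA
      have ha : a ≠ 0 := fun e => hne (by simp [e, bcomp])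
      have r := h.sandwich_E haa hroot hkill
      rw [hsand, site_cr_sandwich] at r
      obtain ⟨hc, hr⟩ := finish (cr G a a) (emb m (bcomp G m a a N)) (h.E_ne_zero ha)
        (fun e => hne (emb_injective m (e.trans (map_zero _).symm))) (fun Z => site_comm_emb m Z _)
        (fun i hi Z => by rw [← site_cr_sandwich]; exact hci _ _ i hi Z) r
      refine ⟨insert m T', D, Function.update X m (cr G a a), _, ?_, hDR.trans (Finset.subset_insert _ _),
        hTT.trans (Finset.subset_insert _ _), ?_, ?_, ?_, ?_,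
        fun e => hne (emb_injective m (e.trans (map_zero _).symm)), hc, hr⟩
      · exact Finset.insert_subset (by simp) (hT'R.trans hsub)
      · rw [Finset.disjoint_insert_left]; exact ⟨hmD, hdis⟩
      · intro i hi
        rcases Finset.mem_insert.1 hi with rfl | hi
        · rw [Function.update_self]; exact ⟨a, ha, haa, rfl⟩
        · rw [Function.update_of_ne (fun e : i = m => hmT (e ▸ hi))]; exact hXT i hi
      · intro i hi
        rw [Function.update_of_ne (fun e : i = m => hmD (e ▸ hi))]; exact hXD i hi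
      · intro i h1 h2
        rw [Finset.mem_insert, not_or] at h1
        rw [Function.update_of_ne h1.1]; exact hX1 i h1.2 h2
    · push Not at hA
      obtain ⟨a, b, hab, hne⟩ : ∃ a b, Pair₂ (gB G) a b ∧ bcomp G m a b N ≠ 0 := by
        by_contra hno
        push Not at hno
        obtain ⟨C, hC⟩ := h.bilin (bB G m N) hA hno
        exact hcm fun Z => by rw [h.eq_emb m (B := N) (C := C) hC]; exact site_comm_emb m Z _
      have hanti : bcomp G m b a N = -bcomp G m a b N := by
        have := hA (a + b) (by simp [hab.2.2.1, hab.2.2.2.1, hab.2.2.2.2, h.hg.symm b a])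
        rw [bcomp_add_left, bcomp_add_right, bcomp_add_right, hA a hab.2.2.1, hA b hab.2.2.2.1,
          zero_add, add_zero] at this
        exact eq_neg_of_add_eq_zero_right this
      have hval : site m (nn G a b) * N * site m (nn G a b) =
          site m (nn G a b) * emb m (-bcomp G m a b N) := by
        simp only [nn, site_sub, sub_mul, mul_sub, site_cr_sandwich, hA a hab.2.2.1, hA b hab.2.2.2.1,
          hanti, map_zero, map_neg, mul_zero, mul_neg]
        abel
      have r := (h.sandwich_nn hab hroot hkill).1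
      rw [hsand, hval] at r
      have hC : emb m (-bcomp G m a b N) ≠ 0 := fun e =>
        hne (neg_eq_zero.1 (emb_injective m (e.trans (map_zero _).symm)))
      obtain ⟨hc, hr⟩ := finish (nn G a b) _ (h.nn_ne_zero hab) hC (fun Z => site_comm_emb m Z _)
        (fun i hi Z => by rw [← hval]; exact hci _ _ i hi Z) r
      refine ⟨T', insert m D, Function.update X m (nn G a b), _, hT'R.trans hsub,
        Finset.insert_subset_insert _ hDR, hTT, ?_, ?_, ?_, ?_, hC, hc, hr⟩
      · rw [Finset.disjoint_insert_right]; exact ⟨hmT, hdis⟩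
      · intro i hi
        rw [Function.update_of_ne (fun e : i = m => hmT (e ▸ hi))]; exact hXT i hi
      · intro i hi
        rcases Finset.mem_insert.1 hi with rfl | hi
        · rw [Function.update_self]; exact ⟨a, b, hab, rfl⟩
        · rw [Function.update_of_ne (fun e : i = m => hmD (e ▸ hi))]; exact hXD i hi
      · intro i h1 h2
        rw [Finset.mem_insert, not_or] at h2
        rw [Function.update_of_ne h2.1]; exact hX1 i h1 h2.2

/-- A member with one long root site gives a shape. -/
theorem shape_of_single (hS : Single G M) : ∃ T D, Shape G M T D := by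
  classical
  haveI := h.nz
  obtain ⟨m, v, Y, hv0, hv, hY, hY0, hX⟩ := hS
  set X := site m (cr G v v) * Y with hXdef
  have hEE : cr G v v * cr G v v = 0 := by rw [cr_mul, hv, zero_smul]
  have hXX : X * X = 0 := by rw [hXdef, site_comp m (hY _), hEE, site_zero, zero_mul]
  obtain ⟨i, a, b, hab, hne⟩ : ∃ i a b, Pair₂ (gB G) a b ∧ ¬ Commute (site i (nn G a b)) Y := by
    by_contra hno
    push Not at hno
    obtain ⟨c, rfl⟩ := h.scalar_of_commute hno
    have hc : c ≠ 0 := fun e => hY0 (by rw [e, zero_smul])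
    obtain ⟨u, hu, hue⟩ := hX
    have := h.iso u hu
    have hsym : (site m (cr G v v))ᵀ * gV G t = gV G t * site m (cr G v v) := by
      rw [site, gV, pureMat_transpose, pureMat_mul, pureMat_mul]
      congr 1
      funext l
      by_cases hl : l = m
      · subst hl; simp [h.cr_transpose_mul]
      · simp [hl]
    have hne : site m (cr G v v) ≠ 0 := fun e =>
      h.E_ne_zero hv0 (site_injective m (e.trans (site_zero m).symm))
    obtain ⟨W, hW⟩ : ∃ W, W = c • site m (cr G v v) := ⟨_, rfl⟩
    have hWW : W * W = 0 := by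
      rw [hW, smul_mul_smul_comm, site_mul, hEE, site_zero, smul_zero]
    have hsymW : Wᵀ * gV G t = gV G t * W := by
      rw [hW, transpose_smul, smul_mul_assoc, hsym, mul_smul_comm]
    rw [hue, show X = W by rw [hXdef, mul_smul_comm, mul_one, hW], transpose_add, transpose_one,
      add_mul, one_mul, hsymW, ← mul_one_add (gV G t) W, mul_assoc,
      show (1 + W) * (1 + W) = 1 + (2 : F) • W by
        rw [mul_add, mul_one, add_mul, one_mul, hWW, two_smul]; abel,
      mul_add, mul_one, add_eq_left] at this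
    refine hne ((smul_eq_zero.1 ?_).resolve_left hc)
    rw [← hW]
    exact (smul_eq_zero.1 (h.gV_cancel this)).resolve_left h.two
  have him : i ≠ m := fun e => hne (e ▸ hY _)
  set A := site i (nn G a b) with hA
  have hAA : A * A = 0 := by rw [hA, site_mul, h.nn_sq hab, site_zero]
  have hAm : ∀ Z, Commute (site m Z) A := fun Z => site_comm him.symm Z _
  have hXAX : X * A * X = 0 := by
    calc X * A * X = site m (cr G v v) * (Y * A) * (site m (cr G v v) * Y) := by
          rw [hXdef]; simp only [mul_assoc]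
      _ = 0 := by rw [site_comp m ((hY _).mul_right (hAm _)), hEE, site_zero, zero_mul]
  obtain ⟨C, hC⟩ : ∃ C, C = X * A - A * X := ⟨_, rfl⟩
  have hAA' : ∀ Z, A * (A * Z) = 0 := fun Z => by rw [← mul_assoc, hAA, zero_mul]
  have hXX' : ∀ Z, X * (X * Z) = 0 := fun Z => by rw [← mul_assoc, hXX, zero_mul]
  have hXAX' : ∀ Z, X * (A * (X * Z)) = 0 := fun Z => by
    rw [← mul_assoc, ← mul_assoc, hXAX, zero_mul]
  have hXAX'' : X * (A * X) = 0 := by rw [← mul_assoc, hXAX]
  have cs : ∀ s : F, InM M (1 + (s • C - (s * s) • (C * A))) := by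
    intro s
    obtain ⟨u, hu, hue⟩ := hX
    obtain ⟨w, hw, hwe⟩ := h.nn_mem hab i s
    rw [← hA] at hwe
    refine ⟨u * w * u⁻¹ * w⁻¹, mul_mem (mul_mem (mul_mem hu hw) (inv_mem hu)) (inv_mem hw), ?_⟩
    rw [Units.val_mul, Units.val_mul, Units.val_mul, inv_val_one_add hue hXX,
      inv_val_one_add hwe (by rw [smul_mul_smul_comm, hAA, smul_zero]), hue, hwe, hC]
    simp only [hXdef.symm, add_mul, mul_add, sub_mul, mul_sub, one_mul, mul_one, smul_mul_assoc,
      mul_smul_comm, smul_smul, smul_add, smul_sub, mul_assoc, hXX, hAA, hAA', hXX', hXAX', hXAX'',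
      mul_zero, zero_mul, smul_zero, add_zero, sub_zero]
    abel
  have hCC : C * C = 0 := by
    simp only [hC, sub_mul, mul_sub, mul_assoc, hXX, hAA, hAA', hXX', hXAX', hXAX'', mul_zero, sub_zero,
      zero_sub, neg_zero, neg_mul, mul_neg]
  have hCAC : C * (C * A) = 0 := by rw [← mul_assoc, hCC, zero_mul]
  have hCA2 : C * A * C = 0 := by
    simp only [hC, sub_mul, mul_sub, mul_assoc, hXX, hAA, hAA', hXX', hXAX', hXAX'', mul_zero, sub_zero,
      zero_sub, neg_zero, neg_mul, mul_neg]
  have hC2 : C * A * (C * A) = 0 := by rw [← mul_assoc, hCA2, zero_mul]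
  have hroot : Root F M C := by
    intro s
    obtain ⟨u, hu⟩ : ∃ u : F, u + u = s := ⟨s / 2, by field_simp [h.two]; ring⟩
    have := InM.add (cs u) (InM.neg (cs (-u)) (by
      simp [add_mul, mul_add, sub_mul, mul_sub, smul_mul_assoc, mul_smul_comm, hCC, hCAC, hCA2, hC2]))
      (by simp [add_mul, mul_add, sub_mul, mul_sub, smul_mul_assoc, mul_smul_comm, hCC, hCAC, hCA2, hC2])
    convert this using 2
    rw [← hu, add_smul, neg_mul_neg, neg_smul]
    abel
  obtain ⟨T, D, -, hsh⟩ := h.exists_shape (T := {m}) (Finset.singleton_nonempty m)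
    (X := Function.update 1 m (cr G v v)) (fun l hl => by
      rw [Finset.mem_singleton.1 hl, Function.update_self]; exact ⟨v, hv0, hv, rfl⟩)
    (fun l hl => by rw [Finset.mem_singleton] at hl; rw [Function.update_of_ne hl]; rfl)
    (N := Y * A - A * Y) (sub_ne_zero.2 fun e => hne e.symm)
    (fun l hl Z => by
      rw [Finset.mem_singleton.1 hl]
      exact ((hY Z).mul_right (hAm Z)).sub_right ((hAm Z).mul_right (hY Z)))
    (by
      have e : pureMat (Function.update 1 m (cr G v v)) * (Y * A - A * Y) = C := by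
        show site m (cr G v v) * (Y * A - A * Y) = C
        rw [hC, hXdef, mul_sub, ← mul_assoc, ← mul_assoc, (hAm (cr G v v)).eq, mul_assoc A]
      rw [e]; exact hroot)
  exact ⟨T, D, hsh⟩

end Sys

end Cfsg.Agent.MaxSub.OrthWreathBig
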