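import Cfsg.Agent.MaxSub.OrthWreathBig.Forms

/-!
Members of the group near a long root element of one site.
-/

set_option autoImplicit false
set_option linter.unusedSectionVars false
set_option linter.unusedSimpArgs false

namespace Cfsg.Agent.MaxSub.OrthWreathBig

open Matrix Module Cfsg.Agent.NotMax Cfsg.Agent.GeoClasses Cfsg.Agent.MaxSub.TensorPowSp
open Cfsg.Agent.MaxSub.OrthTensor (Sym Hyp Pair₂)

variable {F : Type*} [Field F] {k t : ℕ}

section Generic

variable {R : Type*} [Ring R] [Algebra F R] {M : Subgroup Rˣ} {B B' : R}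

lemma InM.neg (hB : InM M (1 + B)) (h0 : B * B = 0) : InM M (1 + -B) := by
  obtain ⟨u, hu, hue⟩ := hB
  exact ⟨u⁻¹, inv_mem hu, by rw [inv_val_one_add hue h0, sub_eq_add_neg]⟩

lemma InM.add (hB : InM M (1 + B)) (hB' : InM M (1 + B')) (h0 : B * B' = 0) :
    InM M (1 + (B + B')) := by
  obtain ⟨u, hu, hue⟩ := hB
  obtain ⟨v, hv, hve⟩ := hB'
  exact ⟨u * v, mul_mem hu hv, by
    rw [Units.val_mul, hue, hve, add_mul, one_mul, mul_add, mul_one, h0]; abel⟩

lemma InM.conj (hB : InM M (1 + B)) {g : Rˣ} (hg : g ∈ M) :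
    InM M (1 + (g : R) * B * ((g⁻¹ : Rˣ) : R)) := by
  obtain ⟨u, hu, hue⟩ := hB
  exact ⟨g * u * g⁻¹, mul_mem (mul_mem hg hu) (inv_mem hg), by
    rw [Units.val_mul, Units.val_mul, hue, mul_add, mul_one, add_mul, Units.mul_inv]⟩

lemma InM.commutator {D : R} (hB : InM M (1 + B)) (hB' : InM M (1 + B'))
    (hD : D = B * B' - B' * B) (h0 : D * B = 0) (h1 : D * B' = 0) (h2 : D * B' * B = 0) :
    InM M (1 + D) := by
  obtain ⟨u, hu, hue⟩ := hB
  obtain ⟨v, hv, hve⟩ := hB'
  refine ⟨u * v * (v * u)⁻¹, mul_mem (mul_mem hu hv) (inv_mem (mul_mem hv hu)), ?_⟩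
  rw [Units.val_mul, Units.mul_inv_eq_iff_eq_mul, Units.val_mul, Units.val_mul, hue, hve]
  simp only [add_mul, mul_add, one_mul, mul_one, ← mul_assoc, h0, h1, h2, add_zero]
  rw [hD]; abel

end Generic

variable {G : Matrix (Fin k) (Fin k) F} {M : Subgroup (GL (Fin t → Fin k) F)}

/-- The member with one long root site. -/
def Single (G : Matrix (Fin k) (Fin k) F) (M : Subgroup (GL (Fin t → Fin k) F)) : Prop :=
  ∃ (j : Fin t) (v : Fin k → F) (Y : Matrix (Fin t → Fin k) (Fin t → Fin k) F),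
    v ≠ 0 ∧ gB G v v = 0 ∧ (∀ X, Commute (site j X) Y) ∧ Y ≠ 0 ∧
      InM M (1 + site j (cr G v v) * Y)

lemma site_sub (j : Fin t) (X Y : Matrix (Fin k) (Fin k) F) : site j (X - Y) = site j X - site j Y :=
  map_sub (siteHom j) X Y

lemma site_neg (j : Fin t) (X : Matrix (Fin k) (Fin k) F) : site j (-X) = -site j X :=
  map_neg (siteHom j) X

lemma site_comp (j : Fin t) {X X' : Matrix (Fin k) (Fin k) F}
    {Y Y' : Matrix (Fin t → Fin k) (Fin t → Fin k) F} (hY : Commute (site j X') Y) :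
    site j X * Y * (site j X' * Y') = site j (X * X') * (Y * Y') := by
  rw [mul_assoc, ← mul_assoc Y, ← hY.eq, ← site_mul]
  simp only [mul_assoc]

/-- A unit acting at one site. -/
lemma good_site {g : GL (Fin k) F} (hg : Good G M g) (j : Fin t) :
    ∃ u ∈ M, (u : Matrix (Fin t → Fin k) (Fin t → Fin k) F) = site j (g : Matrix (Fin k) (Fin k) F) ∧
      ((u⁻¹ : GL (Fin t → Fin k) F) : Matrix (Fin t → Fin k) (Fin t → Fin k) F) =
        site j ((g⁻¹ : GL (Fin k) F) : Matrix (Fin k) (Fin k) F) := by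
  have hv : ((glPure (Function.update (1 : Fin t → GL (Fin k) F) j g) : GL (Fin t → Fin k) F) :
      Matrix (Fin t → Fin k) (Fin t → Fin k) F) = site j (g : Matrix (Fin k) (Fin k) F) := by
    show pureMat _ = _
    rw [site]
    congr 1
    funext i
    by_cases hi : i = j
    · subst hi; simp
    · simp [hi]
  exact ⟨_, hg.mem j, hv, Units.inv_eq_of_mul_eq_one_right (by
    rw [hv, site_mul, Units.mul_inv, site_one])⟩

/-- Moving a member at one site. -/
lemma InM.move {g : GL (Fin k) F} (hg : Good G M g) {j : Fin t} {X : Matrix (Fin k) (Fin k) F}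
    {Y : Matrix (Fin t → Fin k) (Fin t → Fin k) F} (hY : ∀ Z, Commute (site j Z) Y)
    (hX : InM M (1 + site j X * Y)) :
    InM M (1 + site j ((g : Matrix (Fin k) (Fin k) F) * X *
      ((g⁻¹ : GL (Fin k) F) : Matrix (Fin k) (Fin k) F)) * Y) := by
  obtain ⟨u, hu, hue, hui⟩ := good_site hg j
  convert InM.conj hX hu using 2
  rw [hue, hui, ← site_mul, ← site_mul]
  simp only [mul_assoc]
  rw [(hY ((g⁻¹ : GL (Fin k) F) : Matrix (Fin k) (Fin k) F)).eq]

namespace Sys

variable (h : Sys G M)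
include h

omit h in
lemma sandwich_comm (j : Fin t) (a b c d : Fin k → F)
    (B : Matrix (Fin t → Fin k) (Fin t → Fin k) F) :
    ∃ Y, (∀ X, Commute (site j X) Y) ∧ site j (cr G a b) * B * site j (cr G c d) =
      site j (cr G a d) * Y :=
  ⟨_, fun X => site_comm_emb j X _, site_cr_sandwich j a b c d B⟩

lemma nn_mem {a b : Fin k → F} (hp : Pair₂ (gB G) a b) (j : Fin t) (s : F) :
    InM M (1 + s • site j (nn G a b)) := by
  have := h.sieMem j b (s • a) hp.2.2.2.1 (by simp [h.hg.symm b a, hp.2.2.2.2])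
  convert this using 2
  rw [← site_smul]
  congr 1
  simp [sieM, nn, cr_smul_left, cr_smul_right, hp.2.2.1, smul_sub]

lemma nn_sq {a b : Fin k → F} (hp : Pair₂ (gB G) a b) : nn G a b * nn G a b = 0 := by
  simp [nn, mul_sub, sub_mul, cr_mul, hp.2.2.1, hp.2.2.2.1, hp.2.2.2.2, h.hg.symm b a]

variable [Finite F]

/-- The long root elements of all sites generate the matrices. -/
lemma top_of_nn (A : Subalgebra F (Matrix (Fin t → Fin k) (Fin t → Fin k) F))
    (hA : ∀ i a b, Pair₂ (gB G) a b → site i (nn G a b) ∈ A) : A = ⊤ := by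
  haveI := h.nz
  rw [eq_top_iff, ← iSup_range_eq_top, iSup_le_iff]
  intro i
  have := h.span_nn (A.comap (siteHom i)) fun a b hp => hA i a b hp
  rintro _ ⟨X, rfl⟩
  exact (this ▸ Algebra.mem_top : X ∈ A.comap (siteHom i))

lemma scalar_of_commute {B : Matrix (Fin t → Fin k) (Fin t → Fin k) F}
    (hB : ∀ i a b, Pair₂ (gB G) a b → Commute (site i (nn G a b)) B) : ∃ s : F, B = s • 1 := by
  have hall := h.top_of_nn (Subalgebra.centralizer F {B}) fun i a b hp => by
    rw [Subalgebra.mem_centralizer_iff]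
    rintro _ rfl
    exact (hB i a b hp).eq.symm
  have hc : ∀ X, Commute X B := fun X =>
    ((Subalgebra.mem_centralizer_iff (R := F)).1
      (hall ▸ Algebra.mem_top : X ∈ Subalgebra.centralizer F {B}) B rfl).symm
  obtain ⟨s, hs⟩ := (Matrix.mem_range_scalar_iff_commute_single' (M := B)).2 fun p q => hc _
  exact ⟨s, by rw [← hs, Matrix.scalar_apply, ← Matrix.smul_one_eq_diagonal]⟩

omit h in
/-- Commuting nilpotent matrices have a common kernel vector. -/
lemma common_kernel [Nonempty (Fin t → Fin k)]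
    (S : Finset (Matrix (Fin t → Fin k) (Fin t → Fin k) F))
    (hn : ∀ x ∈ S, IsNilpotent x) (hc : ∀ x ∈ S, ∀ y ∈ S, Commute x y) :
    ∃ u : (Fin t → Fin k) → F, u ≠ 0 ∧ ∀ x ∈ S, x *ᵥ u = 0 := by
  classical
  induction S using Finset.induction with
  | empty => exact ⟨fun _ => 1, fun e => one_ne_zero (congrFun e (Classical.arbitrary _)), by simp⟩
  | insert x S hx ih =>
    obtain ⟨u, hu0, hu⟩ := ih (fun y hy => hn y (Finset.mem_insert_of_mem hy))
      fun y hy z hz => hc y (Finset.mem_insert_of_mem hy) z (Finset.mem_insert_of_mem hz)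
    obtain ⟨m, hm⟩ := hn x (Finset.mem_insert_self x S)
    have hex : ∃ m, x ^ m *ᵥ u = 0 := ⟨m, by rw [hm, zero_mulVec]⟩
    have hpos : 0 < Nat.find hex := by
      rw [Nat.pos_iff_ne_zero]
      intro e
      have := Nat.find_spec hex
      rw [e, pow_zero, one_mulVec] at this
      exact hu0 this
    refine ⟨x ^ (Nat.find hex - 1) *ᵥ u, Nat.find_min hex (by omega), fun y hy => ?_⟩
    rcases Finset.mem_insert.1 hy with rfl | hy'
    · rw [mulVec_mulVec, ← pow_succ', Nat.sub_add_cancel hpos]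
      exact Nat.find_spec hex
    · rw [mulVec_mulVec,
        ((hc y hy x (Finset.mem_insert_self x S)).pow_right _).eq, ← mulVec_mulVec, hu y hy', mulVec_zero]

/-- Commuting matrices permuted by the long root elements of all sites are scalar. -/
lemma scalar_of_invariant (A : Subalgebra F (Matrix (Fin t → Fin k) (Fin t → Fin k) F))
    (hcomm : ∀ x ∈ A, ∀ y ∈ A, Commute x y)
    (hinv : ∀ i a b, Pair₂ (gB G) a b → ∀ (s : F), ∀ x ∈ A,
      (1 + s • site i (nn G a b)) * x * (1 - s • site i (nn G a b)) ∈ A)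
    {x : Matrix (Fin t → Fin k) (Fin t → Fin k) F} (hx : x ∈ A) : ∃ s : F, x = s • 1 := by
  classical
  haveI := h.nz
  have hd : ∀ i a b, Pair₂ (gB G) a b → ∀ x ∈ A,
      site i (nn G a b) * x - x * site i (nn G a b) ∈ A ∧
      site i (nn G a b) * x * site i (nn G a b) ∈ A ∧
      (IsNilpotent x → IsNilpotent (site i (nn G a b) * x - x * site i (nn G a b))) := by
    intro i a b hp x hx
    set n := site i (nn G a b) with hn
    have hnn : n * n = 0 := by rw [hn, site_mul, h.nn_sq hp, site_zero]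
    have p1 : (1 + n) * x * (1 - n) ∈ A := by
      simpa using hinv i a b hp 1 x hx
    have p2 : (1 - n) * x * (1 + n) ∈ A := by
      simpa [← sub_eq_add_neg] using hinv i a b hp (-1) x hx
    have e1 : n * x - x * n = (2 : F)⁻¹ • ((1 + n) * x * (1 - n) - (1 - n) * x * (1 + n)) := by
      rw [eq_inv_smul_iff₀ h.two, two_smul]; noncomm_ring
    have e2 : n * x * n =
        (2 : F)⁻¹ • (x + x - ((1 + n) * x * (1 - n) + (1 - n) * x * (1 + n))) := by
      rw [eq_inv_smul_iff₀ h.two, two_smul]; noncomm_ring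
    refine ⟨e1 ▸ A.smul_mem (sub_mem p1 p2) _,
      e2 ▸ A.smul_mem (sub_mem (add_mem hx hx) (add_mem p1 p2)) _, fun hnil => ?_⟩
    let u : (Matrix (Fin t → Fin k) (Fin t → Fin k) F)ˣ :=
      ⟨1 + n, 1 - n, by simp [mul_sub, add_mul, hnn], by simp [mul_add, sub_mul, hnn]⟩
    obtain ⟨m, hm⟩ := hnil
    have hpow : ∀ (u : (Matrix (Fin t → Fin k) (Fin t → Fin k) F)ˣ),
        IsNilpotent ((u : Matrix (Fin t → Fin k) (Fin t → Fin k) F) * x *
          ((u⁻¹ : (Matrix (Fin t → Fin k) (Fin t → Fin k) F)ˣ) : Matrix (Fin t → Fin k) (Fin t → Fin k) F)) :=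
      fun u => ⟨m, by rw [Units.conj_pow, hm, mul_zero, zero_mul]⟩
    rw [e1]
    exact ((hcomm _ p1 _ p2).isNilpotent_sub (hpow u) (hpow u⁻¹)).smul _
  let S := (Set.toFinite {x | x ∈ A ∧ IsNilpotent x}).toFinset
  have hmemS : ∀ x, x ∈ S ↔ x ∈ A ∧ IsNilpotent x := fun x => by simp [S]
  obtain ⟨u, hu0, hu⟩ := common_kernel S (fun x hx => ((hmemS x).1 hx).2)
    fun x hx y hy => hcomm x ((hmemS x).1 hx).1 y ((hmemS y).1 hy).1
  have hker : ∀ x ∈ A, IsNilpotent x → x = 0 := by
    let K : Submodule F ((Fin t → Fin k) → F) :=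
      { carrier := {u | ∀ x ∈ S, x *ᵥ u = 0}
        zero_mem' := by simp
        add_mem' := fun {p q} hp hq x hx => by rw [mulVec_add, hp x hx, hq x hx, add_zero]
        smul_mem' := fun s p hp x hx => by rw [mulVec_smul, hp x hx, smul_zero] }
    let C : Subalgebra F (Matrix (Fin t → Fin k) (Fin t → Fin k) F) :=
      { carrier := {y | ∀ u ∈ K, y *ᵥ u ∈ K}
        mul_mem' := fun {p q} hp hq u hu => by rw [← mulVec_mulVec]; exact hp _ (hq u hu)
        add_mem' := fun {p q} hp hq u hu => by rw [add_mulVec]; exact add_mem (hp u hu) (hq u hu)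
        algebraMap_mem' := fun s u hu => by
          rw [Algebra.algebraMap_eq_smul_one, smul_mulVec, one_mulVec]; exact K.smul_mem s hu }
    have hC : C = ⊤ := h.top_of_nn C fun i a b hp u hu x hx => by
      obtain ⟨hxA, hxn⟩ := (hmemS x).1 hx
      obtain ⟨h1, -, h3⟩ := hd i a b hp x hxA
      have := hu _ ((hmemS _).2 ⟨h1, h3 hxn⟩)
      rw [sub_mulVec, ← mulVec_mulVec, ← mulVec_mulVec, hu x hx, mulVec_zero, zero_sub, neg_eq_zero] at this
      exact this
    intro x hx hxn
    obtain ⟨q, hq⟩ := Function.ne_iff.1 hu0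
    refine Matrix.ext_of_mulVec_single fun p => ?_
    have := (hC ▸ Algebra.mem_top : Matrix.single p q (u q)⁻¹ ∈ C) u hu x ((hmemS x).2 ⟨hx, hxn⟩)
    have hq' : u q ≠ 0 := by simpa using hq
    have e : Matrix.single p q (u q)⁻¹ *ᵥ u = Pi.single p 1 := by
      rw [Matrix.single_mulVec, inv_mul_cancel₀ hq']; rfl
    rw [e] at this
    rw [zero_mulVec]
    exact this
  have hx0 : ∀ i a b, Pair₂ (gB G) a b → ∀ x ∈ A, site i (nn G a b) * x * site i (nn G a b) = 0 := by
    intro i a b hp x hx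
    refine hker _ (hd i a b hp x hx).2.1 ⟨2, ?_⟩
    have hnn : site i (nn G a b) * site i (nn G a b) = 0 := by rw [site_mul, h.nn_sq hp, site_zero]
    rw [pow_two, mul_assoc, ← mul_assoc (site i _) (site i _ * x),
      ← mul_assoc (site i _) (site i _) x, hnn, zero_mul, zero_mul, mul_zero]
  refine h.scalar_of_commute fun i a b hp => sub_eq_zero.1 (hker _ (hd i a b hp x hx).1 ⟨2, ?_⟩)
  set n := site i (nn G a b) with hn
  have hnn : n * n = 0 := by rw [hn, site_mul, h.nn_sq hp, site_zero]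
  have e : (n * x - x * n) ^ 2 = (n * x * n) * x + x * (n * x * n) - n * (x * x) * n - x * (n * n) * x := by
    noncomm_ring
  rw [e, hx0 i a b hp x hx, hx0 i a b hp _ (mul_mem hx hx), hnn]
  simp

/-- Two quadratic forms in the four corner sandwiches of a pair. -/
theorem root (hno : ¬ Single G M) {v c v' c' : Fin k → F} (hp : Pair₂ (gB G) v c)
    (hv : Hyp (gB G) v v') (hc : Hyp (gB G) c c') (h1 : gB G v' c = 0) (h2 : gB G v c' = 0)
    (h3 : gB G v' c' = 0) (j : Fin t) {L : Matrix (Fin t → Fin k) (Fin t → Fin k) F}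
    (hl : site j (cr G v v' + cr G c c') * L = L) (hr : L * site j (cr G v' v + cr G c' c) = L)
    (hL : InM M (1 + L)) : ∃ s : F, L = s • site j (nn G v c) := by
  classical
  obtain ⟨P, hP, eP⟩ := sandwich_comm (G := G) j v v' v' v L
  obtain ⟨E, hE, eE⟩ := sandwich_comm (G := G) j v v' c' c L
  obtain ⟨E', hE', eE'⟩ := sandwich_comm (G := G) j c c' v' v L
  obtain ⟨R, hR, eR⟩ := sandwich_comm (G := G) j c c' c' c L
  let quad : (Fin k → F) → (Fin k → F) → Matrix (Fin t → Fin k) (Fin t → Fin k) F := fun a b =>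
    site j (cr G a a) * P + site j (cr G a b) * E + site j (cr G b a) * E' + site j (cr G b b) * R
  have hLq : L = quad v c := by
    simp only [quad]
    rw [← eP, ← eE, ← eE', ← eR]
    conv_lhs => rw [← hr, ← hl, site_add, site_add, add_mul, mul_add, add_mul, add_mul]
    abel
  -- shifting the second vector
  have hmul : ∀ a b : Fin k → F, gB G a v = 0 → gB G a c = 0 → gB G b v = 0 → gB G b c = 0 →
      ∀ x y, (x = a ∨ x = b) → (y = v ∨ y = c) → gB G x y = 0 := by
    rintro a b e1 e2 e3 e4 x y (rfl | rfl) (rfl | rfl) <;> assumption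
  have cv : gB G c v = 0 := by rw [h.hg.symm, hp.2.2.2.2]
  have hqq : ∀ a b x y : Fin k → F, gB G a x = 0 → gB G a y = 0 → gB G b x = 0 → gB G b y = 0 →
      quad a b * quad x y = 0 := by
    intro a b x y e1 e2 e3 e4
    simp only [quad, mul_add, add_mul, site_comp j (hP _), site_comp j (hE _), site_comp j (hE' _),
      site_comp j (hR _), cr_mul, e1, e2, e3, e4, zero_smul, site_zero, zero_mul, add_zero]
  have hsh : ∀ s : F, InM M (1 + quad v (c + s • v)) ∧ InM M (1 + quad (v + s • c) c) := by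
    intro s
    constructor
    · obtain ⟨g, hg, hge, hgi⟩ := h.good_sie (u := v) (y := (-s) • c') hp.2.2.1 (by simp [h2])
      obtain ⟨u, hu, hue, hui⟩ := good_site hg j
      have := InM.conj hL hu
      convert this using 2
      rw [hLq, hue, hui]
      have cj : ∀ (X : Matrix (Fin k) (Fin k) F) Y, (∀ Z, Commute (site j Z) Y) →
          site j (g : Matrix (Fin k) (Fin k) F) * (site j X * Y) *
            site j ((g⁻¹ : GL (Fin k) F) : Matrix (Fin k) (Fin k) F) =
          site j ((g : Matrix (Fin k) (Fin k) F) * X *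
            ((g⁻¹ : GL (Fin k) F) : Matrix (Fin k) (Fin k) F)) * Y := fun X Y hY => by
        rw [← site_mul, ← site_mul]
        simp only [mul_assoc]
        rw [(hY ((g⁻¹ : GL (Fin k) F) : Matrix (Fin k) (Fin k) F)).eq]
      have ev : (g : Matrix (Fin k) (Fin k) F) *ᵥ v = v := by
        rw [hge, add_mulVec, one_mulVec, sieM_mulVec, OrthTensor.sie_apply]
        simp [hp.2.2.1, h.hg.symm c' v, h2]
      have ec : (g : Matrix (Fin k) (Fin k) F) *ᵥ c = c + s • v := by
        rw [hge, add_mulVec, one_mulVec, sieM_mulVec, OrthTensor.sie_apply]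
        simp [hp.2.2.2.2, h.hg.symm c' c, hc.2.2]
      simp only [quad, mul_add, add_mul, cj _ _ hP, cj _ _ hE, cj _ _ hE', cj _ _ hR, h.conj_cr hg.iso,
        ev, ec]
    · obtain ⟨g, hg, hge, hgi⟩ := h.good_sie (u := c) (y := (-s) • v') hp.2.2.2.1
        (by simp [h.hg.symm c v', h1])
      obtain ⟨u, hu, hue, hui⟩ := good_site hg j
      have := InM.conj hL hu
      convert this using 2
      rw [hLq, hue, hui]
      have cj : ∀ (X : Matrix (Fin k) (Fin k) F) Y, (∀ Z, Commute (site j Z) Y) →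
          site j (g : Matrix (Fin k) (Fin k) F) * (site j X * Y) *
            site j ((g⁻¹ : GL (Fin k) F) : Matrix (Fin k) (Fin k) F) =
          site j ((g : Matrix (Fin k) (Fin k) F) * X *
            ((g⁻¹ : GL (Fin k) F) : Matrix (Fin k) (Fin k) F)) * Y := fun X Y hY => by
        rw [← site_mul, ← site_mul]
        simp only [mul_assoc]
        rw [(hY ((g⁻¹ : GL (Fin k) F) : Matrix (Fin k) (Fin k) F)).eq]
      have ec : (g : Matrix (Fin k) (Fin k) F) *ᵥ c = c := by
        rw [hge, add_mulVec, one_mulVec, sieM_mulVec, OrthTensor.sie_apply]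
        simp [hp.2.2.2.1, h1]
      have ev : (g : Matrix (Fin k) (Fin k) F) *ᵥ v = v + s • c := by
        rw [hge, add_mulVec, one_mulVec, sieM_mulVec, OrthTensor.sie_apply]
        simp [cv, h.hg.symm v' v, hv.2.2]
      simp only [quad, mul_add, add_mul, cj _ _ hP, cj _ _ hE, cj _ _ hE', cj _ _ hR, h.conj_cr hg.iso,
        ev, ec]
  rw [hLq] at hL
  have zv : ∀ a b : F, gB G (v + a • c) (v + b • c) = 0 := fun a b => by
    simp [hp.2.2.1, hp.2.2.2.1, hp.2.2.2.2, cv]
  have zc : ∀ a b : F, gB G (c + a • v) (c + b • v) = 0 := fun a b => by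
    simp [hp.2.2.1, hp.2.2.2.1, hp.2.2.2.2, cv]
  have zcv : ∀ a : F, gB G v (c + a • v) = 0 ∧ gB G (c + a • v) v = 0 ∧
      gB G (v + a • c) c = 0 ∧ gB G c (v + a • c) = 0 := fun a => by
    simp [hp.2.2.1, hp.2.2.2.1, hp.2.2.2.2, cv]
  have kill : ∀ {Y : Matrix (Fin t → Fin k) (Fin t → Fin k) F}, (2 : F) • Y = 0 → Y = 0 := fun e =>
    (smul_eq_zero.1 e).resolve_left h.two
  have hno' : ∀ (a : Fin k → F) Y, a ≠ 0 → gB G a a = 0 → (∀ X, Commute (site j X) Y) →
      InM M (1 + site j (cr G a a) * Y) → Y = 0 := fun a Y ha haa hY hm => by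
    by_contra h0
    exact hno ⟨j, a, Y, ha, haa, hY, h0, hm⟩
  have hR0 : R = 0 := by
    refine kill (hno' v _ hp.1 hp.2.2.1 (fun X => (hR X).smul_right 2) ?_)
    have h12 := InM.add (hsh 1).1 (hsh (-1)).1
      (hqq _ _ _ _ hp.2.2.1 (zcv _).1 (zcv _).2.1 (zc _ _))
    have hn := InM.neg hL (hqq _ _ _ _ hp.2.2.1 hp.2.2.2.2 cv hp.2.2.2.1)
    have q0 := hqq v c v c hp.2.2.1 hp.2.2.2.2 cv hp.2.2.2.1
    have := InM.add h12 (InM.add hn hn (by rw [neg_mul_neg, q0])) (by
      rw [add_mul, mul_add, mul_add, mul_neg, mul_neg,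
        hqq _ _ _ _ hp.2.2.1 hp.2.2.2.2 (zcv _).2.1 (by simpa using zc 1 0),
        hqq _ _ _ _ hp.2.2.1 hp.2.2.2.2 (zcv _).2.1 (by simpa using zc (-1) 0)]
      simp)
    convert this using 2
    simp only [quad, cr_add_left, cr_add_right, cr_smul_left, cr_smul_right, site_add, site_smul,
      add_mul, smul_mul_assoc, mul_smul_comm, smul_add, smul_smul]
    module
  have hP0 : P = 0 := by
    refine kill (hno' c _ (h.pair_symm hp).1 hp.2.2.2.1 (fun X => (hP X).smul_right 2) ?_)
    have h12 := InM.add (hsh 1).2 (hsh (-1)).2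
      (hqq _ _ _ _ (zv _ _) (zcv _).2.2.1 (zcv _).2.2.2 hp.2.2.2.1)
    have hn := InM.neg hL (hqq _ _ _ _ hp.2.2.1 hp.2.2.2.2 cv hp.2.2.2.1)
    have q0 := hqq v c v c hp.2.2.1 hp.2.2.2.2 cv hp.2.2.2.1
    have := InM.add h12 (InM.add hn hn (by rw [neg_mul_neg, q0])) (by
      rw [add_mul, mul_add, mul_add, mul_neg, mul_neg,
        hqq _ _ _ _ (by simpa using zv 1 0) (zcv _).2.2.1 cv hp.2.2.2.1,
        hqq _ _ _ _ (by simpa using zv (-1) 0) (zcv _).2.2.1 cv hp.2.2.2.1]
      simp)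
    convert this using 2
    simp only [quad, cr_add_left, cr_add_right, cr_smul_left, cr_smul_right, site_add, site_smul,
      add_mul, smul_mul_assoc, mul_smul_comm, smul_add, smul_smul]
    module
  have hEE : E' = -E := by
    rw [eq_neg_iff_add_eq_zero, add_comm]
    refine hno' v _ hp.1 hp.2.2.1 (fun X => (hE X).add_right (hE' X)) ?_
    have hn := InM.neg hL (hqq _ _ _ _ hp.2.2.1 hp.2.2.2.2 cv hp.2.2.2.1)
    have := InM.add (hsh 1).1 hn (by
      rw [mul_neg, hqq _ _ _ _ hp.2.2.1 hp.2.2.2.2 (zcv _).2.1 (by simpa using zc 1 0), neg_zero])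
    convert this using 2
    simp only [quad, hR0, cr_add_left, cr_add_right, cr_smul_left, cr_smul_right, site_add, site_smul,
      add_mul, smul_mul_assoc, mul_smul_comm, smul_add, smul_smul, mul_add, mul_zero, smul_zero]
    module
  set N := site j (nn G v c) with hN
  have hLN : quad v c = N * E := by
    simp only [quad, hN, nn, site_sub, sub_mul, hP0, hR0, hEE, mul_zero, mul_neg]
    abel
  rw [hLN] at hL
  let S : Set (Matrix (Fin t → Fin k) (Fin t → Fin k) F) :=
    {Y | (∀ X, Commute (site j X) Y) ∧ InM M (1 + N * Y)}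
  by_cases hcomm : ∀ x ∈ S, ∀ y ∈ S, Commute x y
  · let A := Algebra.adjoin F S
    have hA1 : A ≤ Subalgebra.centralizer F S := Algebra.adjoin_le fun x hx => by
      rw [SetLike.mem_coe, Subalgebra.mem_centralizer_iff]
      exact fun y hy => (hcomm y hy x hx).eq
    have hA2 : A ≤ Subalgebra.centralizer F (A : Set (Matrix (Fin t → Fin k) (Fin t → Fin k) F)) :=
      Algebra.adjoin_le fun x hx => by
        rw [SetLike.mem_coe, Subalgebra.mem_centralizer_iff]
        exact fun y hy => ((Subalgebra.mem_centralizer_iff (R := F)).1 (hA1 hy) x hx).symm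
    have hAj : ∀ x ∈ A, ∀ X, Commute (site j X) x := fun x hx X => by
      have : A ≤ Subalgebra.centralizer F {site j X} := Algebra.adjoin_le fun y hy => by
        rw [SetLike.mem_coe, Subalgebra.mem_centralizer_iff]
        rintro _ rfl
        exact (hy.1 X).eq
      exact (Subalgebra.mem_centralizer_iff (R := F)).1 (this hx) _ rfl
    obtain ⟨s, hs⟩ := h.scalar_of_invariant A
      (fun x hx y hy => (Subalgebra.mem_centralizer_iff (R := F)).1 (hA2 hy) x hx)
      (fun i a b hab s x hx => by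
        set n := s • site i (nn G a b) with hn
        have hnn : n * n = 0 := by
          rw [hn, smul_mul_smul_comm, site_mul, h.nn_sq hab, site_zero, smul_zero]
        by_cases hij : i = j
        · subst hij
          have hc' : Commute n x := (hAj x hx _).smul_left s
          rw [add_mul, one_mul, hc'.eq, ← mul_one_add (α := Matrix (Fin t → Fin k) (Fin t → Fin k) F),
            mul_assoc, show (1 + n) * (1 - n) = 1 by simp [mul_sub, add_mul, hnn], mul_one]
          exact hx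
        let φ : Matrix (Fin t → Fin k) (Fin t → Fin k) F →ₐ[F] _ :=
          AlgHom.ofLinearMap
            ((LinearMap.mulRight F (1 - n)).comp (LinearMap.mulLeft F (1 + n)))
            (by simp [mul_sub, add_mul, hnn])
            (fun p q => by
              simp only [LinearMap.comp_apply, LinearMap.mulLeft_apply, LinearMap.mulRight_apply]
              have : (1 - n) * (1 + n) = 1 := by simp [mul_add, sub_mul, hnn]
              symm
              rw [show (1 + n) * p * (1 - n) * ((1 + n) * q * (1 - n)) =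
                (1 + n) * p * ((1 - n) * (1 + n)) * q * (1 - n) by simp only [mul_assoc], this]
              simp only [mul_one, mul_assoc])
        have hφ : A ≤ A.comap φ := Algebra.adjoin_le fun y hy => by
          refine Algebra.subset_adjoin (show φ y ∈ S from ?_)
          have hjn : ∀ X, Commute (site j X) n := fun X =>
            (show Commute (site j X) (site i (nn G a b)) from site_comm (Ne.symm hij) _ _).smul_right s
          refine ⟨fun X => ?_, ?_⟩
          · exact (((Commute.one_right _).add_right (hjn X)).mul_right (hy.1 X)).mul_right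
              ((Commute.one_right _).sub_right (hjn X))
          · obtain ⟨u, hu, hue⟩ := h.nn_mem hab i s
            have := InM.conj hy.2 hu
            convert this using 2
            show N * ((1 + n) * y * (1 - n)) = _
            rw [hue, inv_val_one_add hue hnn]
            have hc1 : Commute N (1 + n) := (Commute.one_right _).add_right (hjn _)
            simp only [← mul_assoc, hc1.eq]
            rfl
        exact hφ hx)
      (show E ∈ A from Algebra.subset_adjoin ⟨hE, hL⟩)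
    exact ⟨s, by rw [hLq, hLN, hs, mul_smul_comm, mul_one]⟩
  · exfalso
    push Not at hcomm
    obtain ⟨E1, ⟨hE1, hm1⟩, E2, ⟨hE2, hm2⟩, hne⟩ := hcomm
    obtain ⟨g, μ, hg, hμ, gv, gc⟩ := h.move (x := v) (b := c) (c := c') hp.2.1 (fun hm => by
      obtain ⟨l, hl⟩ := Submodule.mem_span_singleton.1 hm
      have := hc.2.2
      rw [← hl] at this
      simp [cv] at this) hp.2.2.2.1 hc.2.1 hp.2.2.2.2 h2
    have hm2' := InM.move hg hE2 hm2
    rw [h.conj_nn hg.iso, gv, gc, nn_smul_right] at hm2'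
    set X := N * E1 with hX
    set Y := site j (μ • nn G v c') * E2 with hY
    have hc'v : gB G c' v = 0 := by rw [h.hg.symm, h2]
    have hc'c : gB G c' c = 1 := by rw [h.hg.symm, hc.2.2]
    have m1 : nn G v c * nn G v c' = -cr G v v := by
      simp [nn, mul_sub, sub_mul, cr_mul, hp.2.2.1, cv, h2, hc.2.2, hp.2.2.2.2, hc'v]
    have m2 : nn G v c' * nn G v c = -cr G v v := by
      simp [nn, mul_sub, sub_mul, cr_mul, hp.2.2.1, cv, h2, hc'c, hp.2.2.2.2, hc'v]
    have q1 : cr G v v * nn G v c = 0 := by simp [nn, mul_sub, cr_mul, hp.2.2.1, hp.2.2.2.2]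
    have q2 : cr G v v * nn G v c' = 0 := by simp [nn, mul_sub, cr_mul, hp.2.2.1, h2]
    have hXX : X * X = 0 := by
      rw [hX, hN, site_comp j (hE1 _), h.nn_sq hp, site_zero, zero_mul]
    have hYY : Y * Y = 0 := by
      rw [hY, site_comp j (hE2 _), smul_mul_smul_comm]
      simp [nn, mul_sub, sub_mul, cr_mul, hp.2.2.1, h2, hc'v, hc.2.1, site_zero]
    have eXY : X * Y = site j ((-μ) • cr G v v) * (E1 * E2) := by
      rw [hX, hY, hN, site_comp j (hE1 _), mul_smul_comm, m1, smul_neg, neg_smul]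
    have eYX : Y * X = site j ((-μ) • cr G v v) * (E2 * E1) := by
      rw [hX, hY, hN, site_comp j (hE2 _), smul_mul_assoc, m2, smul_neg, neg_smul]
    have hXYX : X * (Y * X) = 0 := by
      rw [← mul_assoc, eXY, hX, hN, site_comp j ((hE1 _).mul_right (hE2 _)), smul_mul_assoc, q1,
        smul_zero, site_zero, zero_mul]
    have hYXY : Y * (X * Y) = 0 := by
      rw [← mul_assoc, eYX, hY, site_comp j ((hE2 _).mul_right (hE1 _)), smul_mul_smul_comm, q2,
        smul_zero, site_zero, zero_mul]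
    have := InM.comm hm1 hm2' hXX hYY hXYX hYXY
    rw [eXY, eYX, ← mul_sub, site_smul, smul_mul_assoc, ← mul_smul_comm] at this
    refine hno ⟨j, v, _, hp.1, hp.2.2.1, fun Z => ?_, ?_, this⟩
    · exact (((hE1 Z).mul_right (hE2 Z)).sub_right ((hE2 Z).mul_right (hE1 Z))).smul_right _
    · exact smul_ne_zero (neg_ne_zero.2 hμ) (sub_ne_zero.2 hne)

/-- The second condition of tameness. -/
theorem diag (hno : ¬ Single G M) {v c v' c' : Fin k → F} (hp : Pair₂ (gB G) v c)
    (hv : Hyp (gB G) v v') (hc : Hyp (gB G) c c') (h1 : gB G v' c = 0) (h2 : gB G v c' = 0)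
    (h3 : gB G v' c' = 0) (j : Fin t) {g : GL (Fin t → Fin k) F} (hgM : g ∈ M)
    {r : Matrix (Fin t → Fin k) (Fin t → Fin k) F}
    (hg1 : (g : Matrix (Fin t → Fin k) (Fin t → Fin k) F) * site j (nn G v c) = r * site j (nn G v c))
    (hg2 : site j (nn G v c) * ((g⁻¹ : GL (Fin t → Fin k) F) :
      Matrix (Fin t → Fin k) (Fin t → Fin k) F) = r * site j (nn G v c))
    (hg3 : ∀ Z, site j (nn G v c) * Z = 0 →
      site j (cr G v v' + cr G c c') * ((g : Matrix (Fin t → Fin k) (Fin t → Fin k) F) * Z - Z) =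
        (g : Matrix (Fin t → Fin k) (Fin t → Fin k) F) * Z - Z) :
    ∃ s : F, r * site j (nn G v c) = s • site j (nn G v c) := by
  classical
  set N := site j (nn G v c) with hN
  set P1 := site j (cr G v v' + cr G c c') with hP1
  set g0 := (g : Matrix (Fin t → Fin k) (Fin t → Fin k) F) with hg0
  set gi := ((g⁻¹ : GL (Fin t → Fin k) F) : Matrix (Fin t → Fin k) (Fin t → Fin k) F) with hgi
  have cv : gB G c v = 0 := by rw [h.hg.symm, hp.2.2.2.2]
  have v'v : gB G v' v = 1 := by rw [h.hg.symm, hv.2.2]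
  have c'c : gB G c' c = 1 := by rw [h.hg.symm, hc.2.2]
  have c'v : gB G c' v = 0 := by rw [h.hg.symm, h2]
  have cv' : gB G c v' = 0 := by rw [h.hg.symm, h1]
  have c'v' : gB G c' v' = 0 := by rw [h.hg.symm, h3]
  set U := site j (cr G c' v' - cr G v' c') with hU
  have hNU : N * U = P1 := by
    rw [hN, hU, hP1, site_mul]
    congr 1
    simp [nn, mul_sub, sub_mul, cr_mul, hv.2.2, hc.2.2, h2, cv']
  have hPN : P1 * N = N := by
    rw [hN, hP1, site_mul]
    congr 1
    simp [nn, mul_sub, add_mul, cr_mul, v'v, c'c, h1, c'v]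
    try abel
  have hgi2 : gi * N = N * g0 := by
    have : g0 * N = N * gi := hg1.trans hg2.symm
    calc gi * N = gi * (N * gi) * g0 := by
          rw [mul_assoc, mul_assoc N, hgi, hg0, Units.inv_mul, mul_one]
      _ = N * g0 := by rw [← this, ← mul_assoc gi, hgi, hg0, Units.inv_mul, one_mul]
  -- an anisotropic vector orthogonal to the four
  obtain ⟨y, hy, hyp⟩ := Sym.exists_perp_avoid (g := gB G) ![v, c, v', c'] ⊥ (by
    rw [finrank_bot, finrank_fin_fun]; have := h.five; omega)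
  obtain ⟨z, hz, hzS⟩ := h.hg.exists_pair_sub (y := y) (S := Submodule.span F {v, c, v', c'})
    fun hm => by
      obtain ⟨a1, w, hw, rfl⟩ := Submodule.mem_span_insert.1 hm
      obtain ⟨a2, w', hw', rfl⟩ := Submodule.mem_span_insert.1 hw
      obtain ⟨a3, a4, rfl⟩ := Submodule.mem_span_pair.1 hw'
      have e1 := hyp 0
      have e2 := hyp 1
      have e3 := hyp 2
      have e4 := hyp 3
      simp [hp.2.2.1, hp.2.2.2.2, hv.2.2, h2] at e1
      simp [hp.2.2.2.1, cv, hc.2.2, cv'] at e2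
      simp [hv.2.1, v'v, h1, h3] at e3
      simp [hc.2.1, c'c, c'v, c'v'] at e4
      exact hy (by simp [e1, e2, e3, e4])
  obtain ⟨p, hpm, hpp⟩ := h.hg.aniso_of_pair
    (S := LinearMap.ker (LinearMap.pi fun i => gB G (![v, c, v', c'] i))) (x := y) (y := z)
    (LinearMap.mem_ker.2 (funext fun i => hyp i))
    (LinearMap.mem_ker.2 (funext fun i => hzS _ (Submodule.subset_span (by fin_cases i <;> simp))))
    (by rw [hz]; exact one_ne_zero)
  have vp : gB G v p = 0 := congrFun (LinearMap.mem_ker.1 hpm) 0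
  have cp : gB G c p = 0 := congrFun (LinearMap.mem_ker.1 hpm) 1
  have pv : gB G p v = 0 := by rw [h.hg.symm, vp]
  have pc : gB G p c = 0 := by rw [h.hg.symm, cp]
  set κ := gB G p p with hκ
  -- how `g` moves the line of `p` and the range of `P1`
  have gW : ∀ Z, g0 * (P1 * Z) = P1 * (g0 * (P1 * Z)) := fun Z => by
    rw [← mul_assoc, ← hNU, ← mul_assoc, hg1, ← hg2]
    simp only [mul_assoc]
    rw [← mul_assoc U, ← mul_assoc N (U * N), ← mul_assoc N U, hNU, hPN]
  have giW : ∀ Z, gi * (P1 * Z) = P1 * (gi * (P1 * Z)) := fun Z => by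
    rw [← mul_assoc, ← hNU, ← mul_assoc, hgi2]
    simp only [mul_assoc]
    rw [← mul_assoc U, ← mul_assoc N (U * N), ← mul_assoc N U, hNU, hPN]
  have gp : ∀ b, ∃ D, g0 * site j (cr G p b) = site j (cr G p b) + P1 * D := fun b => by
    refine ⟨g0 * site j (cr G p b) - site j (cr G p b), ?_⟩
    rw [hg3 _ (by rw [hN, site_mul]; simp [nn, sub_mul, cr_mul, vp, cp, site_zero]), add_sub_cancel]
  have gip : ∀ b, ∃ D, gi * site j (cr G p b) = site j (cr G p b) + P1 * D := fun b => by
    obtain ⟨D, hD⟩ := gp b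
    refine ⟨-(gi * (P1 * D)), ?_⟩
    have := congrArg (gi * ·) hD
    simp only [← mul_assoc, hgi, hg0, Units.inv_mul, one_mul, mul_add] at this
    rw [mul_neg, ← giW, ← sub_eq_add_neg, eq_sub_iff_add_eq, ← mul_assoc]
    exact this.symm
  have hleft : ∀ a b, (a = v ∨ a = c) → site j (cr G a b) = P1 * site j (cr G a b) := by
    intro a b ha
    rw [hP1, site_mul]
    rcases ha with rfl | rfl <;> simp [add_mul, cr_mul, v'v, c'c, h1, c'v]
  set X1 := site j (sieM G v p) with hX1
  set X2 := site j (sieM G c p) with hX2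
  have hX1P : ∀ Z, X1 * (P1 * Z) = 0 := fun Z => by
    rw [← mul_assoc, hX1, hP1, site_mul]
    simp [sieM, mul_add, sub_mul, cr_mul, hp.2.2.1, hp.2.2.2.2, pv, pc, site_zero]
  have hX2P : ∀ Z, X2 * (P1 * Z) = 0 := fun Z => by
    rw [← mul_assoc, hX2, hP1, site_mul]
    simp [sieM, mul_add, sub_mul, cr_mul, cv, hp.2.2.2.1, pv, pc, site_zero]
  have hX2e : X2 = site j (cr G p c) - site j (cr G c p) - (κ / 2) • site j (cr G c c) := by
    rw [hX2, sieM, site_sub, site_sub, site_smul]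
  have hX1e : X1 = site j (cr G p v) - site j (cr G v p) - (κ / 2) • site j (cr G v v) := by
    rw [hX1, sieM, site_sub, site_sub, site_smul]
  -- products with members preserving the range of `P1`
  have hW : ∀ Y, (∀ Z, Y * (P1 * Z) = 0) → ∀ (q : Matrix (Fin t → Fin k) (Fin t → Fin k) F),
      (∀ Z, q * (P1 * Z) = P1 * (q * (P1 * Z))) →
      (∀ b, ∃ D, q * site j (cr G p b) = site j (cr G p b) + P1 * D) →
      Y * (q * X1) = Y * site j (cr G p v) ∧ Y * (q * X2) = Y * site j (cr G p c) := by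
    intro Y hY q qW qp
    have z : ∀ a b, (a = v ∨ a = c) → Y * (q * site j (cr G a b)) = 0 := fun a b ha => by
      rw [hleft a b ha, qW, hY]
    have zp : ∀ b, Y * (q * site j (cr G p b)) = Y * site j (cr G p b) := fun b => by
      obtain ⟨D, hD⟩ := qp b
      rw [hD, mul_add, hY, add_zero]
    rw [hX1e, hX2e]
    simp only [mul_sub, mul_smul_comm, z _ _ (Or.inl rfl), z _ _ (Or.inr rfl), zp, smul_zero, sub_zero,
      and_self]
  have kl : ∀ a b, (b = v ∨ b = c) → ∀ Z, site j (cr G a b) * (P1 * Z) = 0 := by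
    intro a b hb Z
    rw [← mul_assoc, hP1, site_mul]
    rcases hb with rfl | rfl <;>
      simp [mul_add, cr_mul, hp.2.2.1, hp.2.2.2.2, cv, hp.2.2.2.1, site_zero]
  set L := site j (cr G v c) with hLdef
  set L' := site j (cr G c v) with hLdef'
  set A := g0 * X1 * gi with hA
  have hAB : A * X2 = (-κ) • (g0 * L) := by
    rw [hA, mul_assoc, mul_assoc, (hW X1 hX1P gi giW gip).2, hX1, site_mul, hLdef, ← mul_smul_comm,
      ← site_smul]
    simp [sieM, sub_mul, cr_mul, vp, neg_smul, hκ]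
  have hBA : X2 * A = (-κ) • (L' * gi) := by
    rw [hA, ← mul_assoc, (hW X2 hX2P g0 gW gp).1, hX2, site_mul, hLdef', ← smul_mul_assoc, ← site_smul]
    simp [sieM, sub_mul, cr_mul, cp, neg_smul, hκ]
  -- left factors ending in `L` or `L' * gi`
  have hLX : L * (g0 * X1) = 0 := by
    rw [(hW L (kl _ _ (Or.inr rfl)) g0 gW gp).1, hLdef, site_mul]; simp [cr_mul, cp, site_zero]
  have hLX2 : L * X2 = 0 := by
    rw [hLdef, hX2, site_mul]; simp [sieM, mul_sub, cr_mul, cv, hp.2.2.2.1, cp, site_zero]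
  have hL'X : L' * (gi * X2) = 0 := by
    rw [(hW L' (kl _ _ (Or.inl rfl)) gi giW gip).2, hLdef', site_mul]; simp [cr_mul, vp, site_zero]
  have hL'X1 : L' * X1 = 0 := by
    rw [hLdef', hX1, site_mul]; simp [sieM, mul_sub, cr_mul, hp.2.2.1, vp, site_zero]
  obtain ⟨D, hD⟩ : ∃ D, D = g0 * L - L' * gi := ⟨_, rfl⟩
  have hDA : D * A = 0 := by
    rw [hD, hA, sub_mul]
    simp only [mul_assoc]
    rw [← mul_assoc L, ← mul_assoc (L * g0), mul_assoc L g0, hLX, ← mul_assoc gi g0, hgi, hg0,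
      Units.inv_mul, one_mul, ← mul_assoc L', hL'X1]
    simp
  have hDB : D * X2 = 0 := by
    rw [hD, sub_mul, mul_assoc, hLX2, mul_assoc, hL'X, mul_zero, sub_zero]
  obtain ⟨u1, hu1, hu1e⟩ := h.sieMem j v p hp.2.2.1 vp
  have hAm : InM M (1 + A) := InM.conj ⟨u1, hu1, hu1e⟩ hgM
  have hBm : InM M (1 + X2) := h.sieMem j c p hp.2.2.2.1 cp
  have hD1 : InM M (1 + (-κ) • D) := InM.commutator hAm hBm
    (by rw [hAB, hBA, hD, smul_sub]) (by rw [smul_mul_assoc, hDA, smul_zero])
    (by rw [smul_mul_assoc, hDB, smul_zero]) (by rw [smul_mul_assoc, hDB, smul_zero, zero_mul])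
  -- the same with the two vectors interchanged
  set A' := g0 * X2 * gi with hA'
  have hAB' : A' * X1 = (-κ) • (g0 * L') := by
    rw [hA', mul_assoc, mul_assoc, (hW X2 hX2P gi giW gip).1, hX2, site_mul, hLdef', ← mul_smul_comm,
      ← site_smul]
    simp [sieM, sub_mul, cr_mul, cp, neg_smul, hκ]
  have hBA' : X1 * A' = (-κ) • (L * gi) := by
    rw [hA', ← mul_assoc, (hW X1 hX1P g0 gW gp).2, hX1, site_mul, hLdef, ← smul_mul_assoc, ← site_smul]
    simp [sieM, sub_mul, cr_mul, vp, neg_smul, hκ]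
  obtain ⟨D', hD'⟩ : ∃ D', D' = g0 * L' - L * gi := ⟨_, rfl⟩
  have hL'X2g : L' * (g0 * X2) = 0 := by
    rw [(hW L' (kl _ _ (Or.inl rfl)) g0 gW gp).2, hLdef', site_mul]; simp [cr_mul, vp, site_zero]
  have hL'X2 : L' * X1 = 0 := hL'X1
  have hLXgi : L * (gi * X1) = 0 := by
    rw [(hW L (kl _ _ (Or.inr rfl)) gi giW gip).1, hLdef, site_mul]; simp [cr_mul, cp, site_zero]
  have hD'A : D' * A' = 0 := by
    rw [hD', hA', sub_mul]
    simp only [mul_assoc]
    rw [← mul_assoc L', ← mul_assoc (L' * g0), mul_assoc L' g0, hL'X2g, ← mul_assoc gi g0, hgi, hg0,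
      Units.inv_mul, one_mul, ← mul_assoc L, hLX2]
    simp
  have hD'B : D' * X1 = 0 := by
    rw [hD', sub_mul, mul_assoc, hL'X2, mul_assoc, hLXgi, mul_zero, sub_zero]
  have hAm' : InM M (1 + A') := InM.conj hBm hgM
  have hD2 : InM M (1 + (-κ) • D') := InM.commutator hAm' (h.sieMem j v p hp.2.2.1 vp)
    (by rw [hAB', hBA', hD', smul_sub]) (by rw [smul_mul_assoc, hD'A, smul_zero])
    (by rw [smul_mul_assoc, hD'B, smul_zero]) (by rw [smul_mul_assoc, hD'B, smul_zero, zero_mul])
  -- all products of the two vanish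
  have hLP : ∀ (Y Z : Matrix (Fin t → Fin k) (Fin t → Fin k) F), (Y = L ∨ Y = L') → (Z = L ∨ Z = L') →
      Y * Z = 0 ∧ Y * (g0 * Z) = 0 ∧ Y * (gi * Z) = 0 := by
    intro Y Z hY hZ
    have hYk : ∀ W, Y * (P1 * W) = 0 := by
      rcases hY with rfl | rfl
      exacts [kl _ _ (Or.inr rfl), kl _ _ (Or.inl rfl)]
    have hZl : Z = P1 * Z := by
      rcases hZ with rfl | rfl
      exacts [hleft _ _ (Or.inl rfl), hleft _ _ (Or.inr rfl)]
    exact ⟨by rw [hZl, hYk], by rw [hZl, gW, hYk], by rw [hZl, giW, hYk]⟩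
  have hgg : ∀ Z, gi * (g0 * Z) = Z := fun Z => by
    rw [← mul_assoc, hgi, hg0, Units.inv_mul, one_mul]
  have prod0 : ∀ Y Z Y' Z', (Y = L ∨ Y = L') → (Z = L ∨ Z = L') → (Y' = L ∨ Y' = L') →
      (Z' = L ∨ Z' = L') → (g0 * Y - Z * gi) * (g0 * Y' - Z' * gi) = 0 := by
    intro Y Z Y' Z' hY hZ hY' hZ'
    calc (g0 * Y - Z * gi) * (g0 * Y' - Z' * gi)
        = g0 * (Y * (g0 * Y')) - g0 * (Y * Z') * gi - Z * Y' + Z * (gi * Z') * gi := by
          simp only [sub_mul, mul_sub, mul_assoc, hgg]; abel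
      _ = 0 := by
          rw [(hLP Z Y' hZ hY').1, (hLP Y Y' hY hY').2.1, (hLP Y Z' hY hZ').1, (hLP Z Z' hZ hZ').2.2]
          simp
  have hDD : D' * D' = 0 := by
    rw [hD']; exact prod0 _ _ _ _ (Or.inr rfl) (Or.inl rfl) (Or.inr rfl) (Or.inl rfl)
  have hDD' : D * D' = 0 := by
    rw [hD, hD']; exact prod0 _ _ _ _ (Or.inl rfl) (Or.inr rfl) (Or.inr rfl) (Or.inl rfl)
  have hfin := InM.add hD1 (InM.neg hD2 (by rw [smul_mul_smul_comm, hDD, smul_zero]))
    (by rw [mul_neg, smul_mul_smul_comm, hDD', smul_zero, neg_zero])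
  have e : (-κ) • D + -((-κ) • D') = (-(2 * κ)) • (r * N) := by
    have eN : N = L - L' := by rw [hN, hLdef, hLdef', nn, site_sub]
    have e1 : g0 * L - g0 * L' = r * N := by rw [← mul_sub, ← eN, hg1]
    have e2 : L * gi - L' * gi = r * N := by rw [← sub_mul, ← eN, hg2]
    rw [← smul_neg, ← smul_add, neg_smul, neg_smul, mul_comm, ← smul_smul, two_smul]
    congr 2
    conv_rhs => arg 1; rw [← e1]
    rw [← e2, hD, hD']
    abel
  rw [e] at hfin
  have hl : P1 * ((-(2 * κ)) • (r * N)) = (-(2 * κ)) • (r * N) := by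
    rw [mul_smul_comm, ← hg2, ← mul_assoc, hPN]
  have hr' : (-(2 * κ)) • (r * N) * site j (cr G v' v + cr G c' c) = (-(2 * κ)) • (r * N) := by
    rw [smul_mul_assoc, mul_assoc, hN, site_mul]
    congr 3
    simp [nn, mul_add, sub_mul, cr_mul, hv.2.2, hc.2.2, h2, cv']
    try abel
  obtain ⟨s, hs⟩ := h.root hno hp hv hc h1 h2 h3 j hl hr' hfin
  refine ⟨(-(2 * κ))⁻¹ * s, ?_⟩
  rw [← smul_smul, ← hs, smul_smul, inv_mul_cancel₀ (neg_ne_zero.2 (mul_ne_zero h.two hpp)), one_smul]

end Sys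

end Cfsg.Agent.MaxSub.OrthWreathBig
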